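import Cfsg.Agent.H24.Su3
import Cfsg.Agent.H11.Orth2
import Cfsg.Agent.H11.Std

/-! Central extensions of orthogonal groups: lifts of long root elements commute with lifts of their centralizers (`lcm_long`). -/

set_option autoImplicit false

namespace H24
open H11 H11.PForm Subgroup Module
open scoped commutatorElement

universe u
variable {F : Type*} [Field F] {V : Type u} [AddCommGroup V] [Module F V] {S : PForm (orthP F) V}

variable (S) in
noncomputable def ox (e w : V) : S.Isom := S.eich e w (S.q w)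
variable (S) in
def hb (B : Submodule F V) (e f : V) : Submodule F V := B ⊓ S.perp (Submodule.span F {e, f})
variable (S) in
def OB (B : Submodule F V) : Subgroup S.Isom := S.E ⊓ S.fix (S.perp B)

variable {B : Submodule F V} {e f a b u v w x y : V} {K : Subgroup S.Isom}
theorem mem_hb : x ∈ hb S B e f ↔ x ∈ B ∧ S.h e x = 0 ∧ S.h f x = 0 := and_congr_right' S.mem_perp_pair
theorem ox_apply (he : S.q e = 0) (ew : S.h e w = 0) (x : V) : (ox S e w).1 x = x + S.h e x • w - (S.h w x + S.q w * S.h e x) • e := by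
  simpa [ox] using eich_apply (ECond.of_q ((orth_sing S e).2 he) ew) x
theorem ox_fix (h : S.h e x = 0) (h' : S.h w x = 0) : (ox S e w).1 x = x := eich_apply_of_perp_perp h h'
theorem ox_self (e w : V) : (ox S e w).1 e = e := eich_apply_self _ _ _
theorem ox_E (e w : V) : ox S e w ∈ S.E := S.eich_mem_E _ _ _
theorem ox_OB (he : e ∈ B) (hw : w ∈ B) : ox S e w ∈ OB S B := ⟨ox_E e w, fun _ hx => ox_fix (hx e he) (hx w hw)⟩
theorem ox_add (he : S.q e = 0) (h : S.h e v = 0) (h' : S.h e w = 0) : ox S e (v + w) = ox S e v * ox S e w := orth_eich_add he h h'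
theorem ox_neg (he : S.q e = 0) (h : S.h e v = 0) : ox S e (-v) = (ox S e v)⁻¹ := orth_eich_neg he h
theorem ox_zero : ox S e 0 = 1 := by rw [ox, orth_q_zero, eich_zero]
theorem ox_conj (g : S.Isom) (e w : V) : g * ox S e w * g⁻¹ = ox S (g.1 e) (g.1 w) := orth_conj_eich g e w
theorem ox_comm {g : S.Isom} (he : S.q e = 0) (h : S.h e v = 0) (hg : g.1 e = e) : ⁅g, ox S e v⁆ = ox S e (g.1 v - v) :=
  orth_commutator_eich he h hg
theorem hself (he : S.q e = 0) : S.h e e = 0 := by rw [orth_h_self, he, mul_zero]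
theorem ox_line (he : S.q e = 0) (c : F) : ox S e (c • e) = 1 := isom_ext fun x => by
  rw [ox_apply he (by simp [hself he])]; simp [orth_q_smul, he]; module
theorem ox_smul (he : S.q e = 0) (h : S.h e w = 0) (c : F) : ox S (c • e) w = ox S e (c • w) := isom_ext fun x => by
  rw [ox_apply he (by simp [h]), ox_apply (by simp [orth_q_smul, he]) (by simp [h])]; simp [orth_q_smul]; module
theorem ox_add_left (he : S.q e = 0) (hf : S.q f = 0) (ef : S.h e f = 0) (h : S.h e v = 0) (h' : S.h f v = 0) :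
    ox S (e + f) v = ox S e v * ox S f v * ox S e (-S.q v • f) := isom_ext fun x => by
  rw [isom_mul_apply, isom_mul_apply, ox_apply he h, ox_apply hf h', ox_apply he (by simp [ef]),
    ox_apply (by simp [orth_q_add, he, hf, ef]) (by simp [h, h'])]
  simp [orth_q_neg, orth_q_smul, hf, ef, h, hself he, S.h_swap_zero ef, S.h_swap_zero h, S.h_swap_zero h', orth_h_self]; module
theorem iapp {g : S.Isom} (h : g.1 x = y) : (g⁻¹).1 y = x := h ▸ isom_inv_apply_self g x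
theorem hyp_swap (H : S.IsHyp e f) : S.IsHyp f e := ⟨H.2, H.1, H.orth_h_fe⟩

/-- the vectors `y` with `ox e y ∈ K` -/
def oT (he : S.q e = 0) (K : Subgroup S.Isom) : AddSubgroup V where
  carrier := {y | S.h e y = 0 ∧ ox S e y ∈ K}
  add_mem' ha hb := ⟨by simp [ha.1, hb.1], ox_add he ha.1 hb.1 ▸ mul_mem ha.2 hb.2⟩
  zero_mem' := ⟨by simp, ox_zero (S := S) ▸ K.one_mem⟩
  neg_mem' ha := ⟨by simp [ha.1], ox_neg he ha.1 ▸ inv_mem ha.2⟩

theorem hb_dec (H : S.IsHyp e f) (he : e ∈ B) (hf : f ∈ B) (hx : x ∈ B) : ∃ w ∈ hb S B e f, x = S.h f x • e + S.h e x • f + w :=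
  ⟨_, ⟨sub_mem (sub_mem hx (B.smul_mem _ he)) (B.smul_mem _ hf), H.sub_mem_perp x⟩, by simp⟩

theorem gen_sing (H : S.IsHyp e f) (he : e ∈ B) (hf : f ∈ B) {T : AddSubgroup V} (h : ∀ x ∈ B, S.q x = 0 → x ∈ T) (hx : x ∈ B) : x ∈ T := by
  obtain ⟨w, hw, e1⟩ := hb_dec H he hf hx
  obtain ⟨h1, h2, h3⟩ := mem_hb.1 hw
  have k : ∀ {e}, e ∈ B → S.q e = 0 → ∀ c : F, c • e ∈ T := fun he h0 c => h _ (B.smul_mem _ he) (by simp [orth_q_smul, h0])
  rw [e1, show w = (f + w - S.q w • e) - f + S.q w • e by module]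
  exact add_mem (add_mem (k he H.orth_q_e _) (k hf H.orth_q_f _)) (add_mem (sub_mem (h _ (sub_mem (add_mem hf h1) (B.smul_mem _ he)) (by
    simp [orth_q_sub, orth_q_add, orth_q_smul, H.orth_q_e, H.orth_q_f, h3, H.orth_h_fe, S.h_swap_zero h2])) (h _ hf H.orth_q_f)) (k he H.orth_q_e _))

variable [FiniteDimensional F V]

theorem hb_nd (hB : (S.restrict B).Nondeg) (H : S.IsHyp e f) (he : e ∈ B) (hf : f ∈ B) :
    (S.restrict (hb S B e f)).Nondeg ∧ finrank F (hb S B e f) + 2 = finrank F B := by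
  refine ⟨(S.restrict_nondeg_iff' _).2 fun x hx h => (S.restrict_nondeg_iff' _).1 hB x hx.1 fun y hy => ?_, ?_⟩
  · obtain ⟨w, hw, e1⟩ := hb_dec H he hf hy
    rw [e1]; simp [h w hw, S.h_swap_zero (mem_hb.1 hx).2.1, S.h_swap_zero (mem_hb.1 hx).2.2]
  · have h1 := Submodule.finrank_sup_add_finrank_inf_eq (hb S B e f) (Submodule.span F {e, f})
    have h2 : hb S B e f ⊔ Submodule.span F {e, f} = B := le_antisymm (sup_le inf_le_left (Submodule.span_le.2 (by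
      rintro _ (rfl | rfl) <;> assumption))) fun x hx => by
        obtain ⟨w, hw, e1⟩ := hb_dec H he hf hx
        rw [e1]
        exact add_mem (Submodule.mem_sup_right (Submodule.mem_span_pair.2 ⟨_, _, rfl⟩)) (Submodule.mem_sup_left hw)
    rw [h2, (((S.restrict_nondeg_iff _).1 H.nondeg).symm.mono_left (a := hb S B e f) inf_le_right).eq_bot, finrank_bot, H.finrank_span] at h1
    omega

theorem hyp_mem (hB : (S.restrict B).Nondeg) (he : e ∈ B) (h0 : e ≠ 0) (h : S.q e = 0) : ∃ f ∈ B, S.IsHyp e f :=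
  let ⟨f, H⟩ := hB.exists_isHyp (e := ⟨e, he⟩) ((orth_sing _ _).2 h) fun h => h0 (congrArg Subtype.val h)
  ⟨f, f.2, H.1, H.2, H.3⟩
omit [FiniteDimensional F V] in
theorem pair_mem (hB : (S.restrict B).Nondeg) (h : 0 < finrank F B) (c : F) : ∃ x ∈ B, ∃ y ∈ B, S.h x y = c := by
  have : Nontrivial B := Module.nontrivial_of_finrank_pos h
  obtain ⟨x, hx⟩ := exists_ne (0 : B)
  obtain ⟨y, hy⟩ := hB.exists_h_eq_one hx
  exact ⟨x, x.2, c • y, B.smul_mem _ y.2, by simp [show S.h x y = 1 from hy]⟩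

variable [Finite F] (hS : S.Nondeg)

theorem hyp_of_dim (hB : (S.restrict B).Nondeg) (h : 3 ≤ finrank F B) : ∃ e ∈ B, ∃ f ∈ B, S.IsHyp e f :=
  let ⟨e, f, H⟩ := hB.orth_exists_hyp h
  ⟨e, e.2, f, f.2, H.1, H.2, H.3⟩

variable (S) in
def Gd (B : Submodule F V) : Prop := (S.restrict B).Nondeg ∧ (3 ≤ finrank F B ∨ 2 ≤ finrank F B ∧ ∀ x ∈ B, S.q x = 0 → x = 0)

include hS
theorem disp (h3 : 3 ≤ finrank F V) (hB : Gd S B) {T : AddSubgroup V} (h : ∀ t ∈ OB S B, ∀ y ∈ B, t.1 y - y ∈ T) (hx : x ∈ B) : x ∈ T := by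
  rcases hB.2 with h1 | ⟨h1, h2⟩
  · obtain ⟨e, he, f, hf, H⟩ := hyp_of_dim hB.1 h1
    refine gen_sing H he hf (fun c hc h0 => ?_) hx
    obtain rfl | c0 := eq_or_ne c 0
    · exact zero_mem _
    obtain ⟨d, hd, H⟩ := hyp_mem hB.1 hc c0 h0
    have k := hb_nd hB.1 H hc hd
    obtain ⟨y, hy, z, hz, e1⟩ := pair_mem k.1 (by omega) (-1)
    simpa [ox_apply h0 (mem_hb.1 hy).2.1, (mem_hb.1 hz).2.1, e1] using h _ (ox_OB hc hy.1) z hz.1
  obtain rfl | x0 := eq_or_ne x 0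
  · exact zero_mem _
  obtain ⟨c, hc, c1, c2⟩ : ∃ c ∈ B, S.h c x ≠ 0 ∧ c ∉ F ∙ x := by
    obtain ⟨w, hw, w1⟩ : ∃ w ∈ B, w ∉ F ∙ x := SetLike.not_le_iff_exists.1 fun h => by
      have := Submodule.finrank_mono h
      rw [finrank_span_singleton x0] at this; omega
    obtain ⟨w', w2⟩ := hB.1.exists_h_ne_zero (x := ⟨x, hx⟩) fun h => x0 (congrArg Subtype.val h)
    replace w2 : S.h w' x ≠ 0 := fun h => w2 (S.h_swap_zero h)
    by_cases h3 : S.h w x = 0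
    · by_cases h4 : w'.1 ∈ F ∙ x
      · exact ⟨w + w', add_mem hw w'.2, by simpa [h3] using w2, fun h => w1 (by simpa using sub_mem h h4)⟩
      · exact ⟨w', w'.2, w2, h4⟩
    · exact ⟨w, hw, h3, w1⟩
  have qx : S.q x ≠ 0 := fun h => x0 (h2 x hx h)
  have qc : S.q c ≠ 0 := fun h => c1 (by simp [h2 c hc h])
  have mb : (S.refl c).1 x ∈ B := by rw [refl_apply]; exact sub_mem hx (B.smul_mem _ hc)
  obtain ⟨y, hy, y1⟩ := hB.1.exists_perp_of_notMem' (U := F ∙ (⟨_, mb⟩ : B)) (u := ⟨x, hx⟩) (fun h => by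
    obtain ⟨l, hl⟩ := Submodule.mem_span_singleton.1 h
    replace hl : l • (S.refl c).1 x = x := congrArg Subtype.val hl
    rw [refl_apply] at hl
    have l0 : l ≠ 0 := by rintro rfl; exact x0 (by simpa using hl.symm)
    exact c2 (Submodule.mem_span_singleton.2 ⟨(l - 1) * (l * ((S.q c)⁻¹ * S.h c x))⁻¹, by
      rw [mul_comm, mul_smul, inv_smul_eq_iff₀ (by simp [l0, qc, c1]), sub_smul, one_smul]; nth_rw 2 [← hl]; module⟩)) (-S.q x)
  obtain ⟨e, f, H⟩ := hS.orth_exists_hyp h3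
  have q1 : S.q ((S.refl c).1 x) ≠ 0 := by simpa using qx
  have := h (S.refl x * S.refl ((S.refl c).1 x)) ⟨(hS.mem_E_iff h3 H _).2 (by
    simp [hS.dick_refl qx, hS.dick_refl q1, hS.spin_refl qx, hS.spin_refl q1]), fun z hz => by
      rw [isom_mul_apply, refl_apply_of_perp (hz _ mb), refl_apply_of_perp (hz _ hx)]⟩ y y.2
  rw [isom_mul_apply, refl_apply_of_perp (show S.h ((S.refl c).1 x) y = 0 from (S.restrict B).mem_perp_singleton.1 hy), refl_apply, show S.h x y = _ from y1] at this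
  simpa [qx] using this

theorem ox_mem_comm (h3 : 3 ≤ finrank F V) (hB : Gd S B) (he : S.q e = 0) (eB : e ∈ S.perp B) (h1 : OB S B ≤ K) (h2 : ∀ y ∈ B, ox S e y ∈ K)
    (hx : x ∈ B) : ox S e x ∈ ⁅K, K⁆ :=
  (disp hS h3 hB (T := oT he ⁅K, K⁆) (fun t ht y hy => by
    have ey := S.h_swap_zero (eB y hy)
    have te := ht.2 e eB
    exact ⟨by rw [map_sub, ey, ← te, isom_h, ey, sub_zero], ox_comm he ey te ▸ commutator_mem_commutator (h1 ht) (h2 y hy)⟩) hx).2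

theorem OB_le (hB : (S.restrict B).Nondeg) (h3 : 3 ≤ finrank F B) (h4 : (S.restrict B).NotO4)
    (h : ∀ e ∈ B, ∀ f ∈ B, S.IsHyp e f → ∀ v ∈ hb S B e f, ox S e v ∈ K) : OB S B ≤ K := by
  intro g hg
  obtain ⟨k, rfl⟩ := (ext1_range hS hB).ge hg.2
  obtain ⟨e, f, H⟩ := hB.orth_exists_hyp h3
  have := (hS.mem_E_iff (h3.trans B.finrank_le) (e := e) (f := f) ⟨H.1, H.2, H.3⟩ _).1 hg.1
  rw [hS.dick_ext1, hS.spin_ext1, ← hB.mem_E_iff h3 H] at this
  refine hB.orth_E_le h4 (K := K.comap (ext1 hB)) (fun e f H v hv _ => ?_) this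
  rw [mem_comap, ext1_eich]
  exact h e e.2 f f.2 ⟨H.1, H.2, H.3⟩ v (mem_hb.2 ⟨v.2, (S.restrict B).mem_perp_pair.1 hv⟩)

omit [Finite F] in
theorem OB_hb {g : S.Isom} : g ∈ OB S (hb S B e f) ↔ g ∈ OB S B ∧ g.1 e = e ∧ g.1 f = f := by
  simp [OB, hb, hS.perp_inf, hS.perp_perp, mem_fix_sup, mem_fix_span, and_assoc]

omit [Finite F] in
theorem fix_step (H : S.IsHyp e f) (he : e ∈ B) {g : S.Isom} (hg : g ∈ OB S B) (ge : g.1 e = e) :
    g.1 f - f ∈ B ∧ S.h e (g.1 f - f) = 0 ∧ (ox S e (g.1 f - f))⁻¹ * g ∈ OB S (hb S B e f) := by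
  have h1 : g.1 f - f ∈ B := hS.perp_perp B ▸ fun x hx => by rw [map_sub, ← hg.2 x hx, isom_h, hg.2 x hx, sub_self]
  have h2 : S.h e (g.1 f - f) = 0 := by rw [map_sub, ← ge, isom_h, ge, sub_self]
  refine ⟨h1, h2, (OB_hb hS).2 ⟨mul_mem (inv_mem (ox_OB he h1)) hg, ?_, ?_⟩⟩
  · rw [isom_mul_apply, ge, iapp (ox_self _ _)]
  · have : (ox S e (g.1 f - f)).1 f = g.1 f := by
      rw [ox_apply H.orth_q_e h2]; simp [orth_q_sub, H.h_ef, H.orth_q_f, H.h_ff]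
    rw [isom_mul_apply, iapp this]

variable (S) in
def Rm (B : Submodule F V) : Prop := (S.restrict B).Nondeg ∧ 4 ≤ finrank F B ∧ ∀ e ∈ B, ∀ f ∈ B, S.IsHyp e f → Gd S (hb S B e f)

theorem OB_perf (h : Rm S B) : OB S B ≤ ⁅OB S B, OB S B⁆ := by
  refine OB_le hS h.1 (by have := h.2.1; omega) (Or.inr (or_iff_not_imp_left.2 fun h4 h2 => ?_)) fun e he f hf H v hv =>
    ox_mem_comm hS (by have := h.2.1.trans B.finrank_le; omega) (h.2.2 e he f hf H) H.orth_q_e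
      (fun x hx => S.h_swap_zero (mem_hb.1 hx).2.1) (fun g hg => ((OB_hb hS).1 hg).1) (fun y hy => ox_OB he hy.1) hv
  obtain ⟨e, f, H⟩ := h2.exists_hyp h.1
  obtain ⟨x, h0, hx⟩ := hasTS_one_iff.1 ((H.hasTS_iff h.1 1).1 h2)
  have H' : S.IsHyp e f := ⟨H.1, H.2, H.3⟩
  have := (hb_nd h.1 H' e.2 f.2).2
  refine h0 (Subtype.ext (Subtype.ext ((((h.2.2 e e.2 f f.2 H').2).resolve_left (by omega)).2 _
    (mem_hb.2 ⟨x.1.2, (S.restrict B).mem_perp_pair.1 x.2⟩) ((orth_sing _ _).1 hx))))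

variable (S) in
def Mn : Prop := 8 ≤ finrank F V ∧ (S.HasTS 4 → 9 ≤ finrank F V)

omit hS [Finite F] in
theorem ts_hb {k : ℕ} (h : ∃ W, S.TS W ∧ finrank F W = k ∧ B ≤ S.perp W) (H : S.IsHyp e f) (he : e ∈ B) (hf : f ∈ B) :
    ∃ W, S.TS W ∧ finrank F W = k + 1 ∧ hb S B e f ≤ S.perp W := by
  obtain ⟨W, h1, rfl, h2⟩ := h
  refine ⟨_, h1.sup_span H.1 (h2 he), Submodule.finrank_sup_span_singleton fun h => ?_, fun x hx => ?_⟩
  · simpa [H.h_ef] using h2 hf e h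
  · rw [perp_sup]; exact ⟨h2 hx.1, S.mem_perp_singleton.2 (mem_hb.1 hx).2.1⟩

omit [FiniteDimensional F V] [Finite F] in
theorem top_nd : (S.restrict ⊤).Nondeg := (S.restrict_nondeg_iff' _).2 fun x _ h => hS x fun y => h y trivial

variable (hM : Mn S)
include hM
omit [Finite F] in
theorem rm_of {u' v' : V} (H : S.IsHyp u u') (H' : S.IsHyp v v') (hv : v ∈ hb S ⊤ u u') (hv' : v' ∈ hb S ⊤ u u') :
    Rm S (hb S (hb S ⊤ u u') v v') := by
  have k1 := hb_nd (top_nd hS) H trivial trivial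
  have k2 := hb_nd k1.1 H' hv hv'
  have := hM.1
  rw [finrank_top] at k1
  refine ⟨k2.1, by omega, fun e he f hf H3 => ?_⟩
  have k3 := hb_nd k2.1 H3 he hf
  refine ⟨k3.1, or_iff_not_imp_left.2 fun h => ⟨by omega, fun x hx h0 => by_contra fun x0 => ?_⟩⟩
  obtain ⟨y, hy, H4⟩ := hyp_mem k3.1 hx x0 h0
  obtain ⟨W, h1, h2, -⟩ := ts_hb (ts_hb (ts_hb (ts_hb (B := ⊤) ⟨⊥, ts_bot, finrank_bot _ _, by simp⟩ H trivial trivial) H' hv hv') H3 he hf) H4 hx hy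
  have := hM.2 ⟨W, h1, h2⟩
  omega

omit hM [Finite F] in
theorem frame (hu : S.q u = 0) (hv : S.q v = 0) (uv : S.h u v = 0) (h0 : u ≠ 0) (h : v ∉ F ∙ u) :
    ∃ u' v', S.IsHyp u u' ∧ S.IsHyp v v' ∧ v ∈ hb S ⊤ u u' ∧ v' ∈ hb S ⊤ u u' := by
  have v0 : v ≠ 0 := by rintro rfl; exact h (zero_mem _)
  obtain ⟨u', h1, h2, h3⟩ := hS.exists_partner (F ∙ v) ((orth_sing _ _).2 hu) (fun h' => h (by
    obtain ⟨c, rfl⟩ := Submodule.mem_span_singleton.1 h'
    exact Submodule.mem_span_singleton.2 ⟨c⁻¹, inv_smul_smul₀ (by rintro rfl; simp at h0) _⟩)) (S.mem_perp_singleton.2 (S.h_swap_zero uv))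
  have H : S.IsHyp u u' := ⟨(orth_sing _ _).2 hu, h2, h3⟩
  have m : v ∈ hb S ⊤ u u' := mem_hb.2 ⟨trivial, uv, S.h_swap_zero (S.mem_perp_singleton.1 h1)⟩
  obtain ⟨v', h4, H'⟩ := hyp_mem (hb_nd (top_nd hS) H trivial trivial).1 m v0 hv
  exact ⟨u', v', H, H', m, h4⟩

theorem ox_mem_D {u' v' : V} (H : S.IsHyp u u') (H' : S.IsHyp v v') (hv : v ∈ hb S ⊤ u u') (hv' : v' ∈ hb S ⊤ u u')
    (hK : ∀ g ∈ S.E, g.1 u = u → g.1 v = v → g ∈ K) (h1 : S.h u y = 0) (h2 : S.h v y = 0) : ox S u y ∈ ⁅K, K⁆ := by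
  have r := rm_of hS hM H H' hv hv'
  have uv := (mem_hb.1 hv).2.1
  have m : ∀ y, S.h u y = 0 → S.h v y = 0 → ox S u y ∈ K := fun y h1 h2 => hK _ (ox_E _ _) (ox_self _ _) (ox_fix uv (S.h_swap_zero h2))
  have k : ∀ t ∈ K, t.1 u = u → ∀ y, S.h u y = 0 → S.h v y = 0 → t.1 y - y ∈ oT H.orth_q_e ⁅K, K⁆ := fun t ht e y h1 h2 =>
    ⟨by rw [map_sub, h1, ← e, isom_h, h1, sub_zero], ox_comm H.orth_q_e h1 e ▸ commutator_mem_commutator ht (m y h1 h2)⟩
  obtain ⟨w, hw, e1⟩ := hb_dec (B := ⊤) H trivial trivial (x := y) trivial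
  obtain ⟨w', hw', e2⟩ := hb_dec H' hv hv' hw
  have e3 : S.h v w = 0 := by rw [e1] at h2; simpa [S.h_swap_zero uv, S.h_swap_zero (mem_hb.1 hv).2.2] using h2
  obtain ⟨a, ha, b, hb', e4⟩ := pair_mem r.1 (by have := r.2.1; omega) (-S.h v' w)
  have a1 := (mem_hb.1 ha).2.1
  have b1 := (mem_hb.1 hb').2.1
  have := k (ox S v a) (hK _ (ox_E _ _) (ox_fix (S.h_swap_zero uv) (S.h_swap_zero (mem_hb.1 ha.1).2.1)) (ox_self _ _))
    (ox_fix (S.h_swap_zero uv) (S.h_swap_zero (mem_hb.1 ha.1).2.1)) b (mem_hb.1 hb'.1).2.1 b1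
  refine (show y ∈ oT H.orth_q_e ⁅K, K⁆ from ?_).2
  rw [e1, e2, h1, e3, zero_smul, zero_smul, add_zero, add_zero]
  refine add_mem ⟨by simp [H.h_ee], (ox_line H.orth_q_e _).symm ▸ one_mem _⟩ (add_mem (by simpa [ox_apply H'.orth_q_e a1, b1, e4] using this) ?_)
  refine disp hS (by have := hM.1; omega) ⟨r.1, Or.inl (by have := r.2.1; omega)⟩ (fun t ht y hy => ?_) hw'
  obtain ⟨t1, t2, -⟩ := (OB_hb hS).1 ht
  obtain ⟨t3, t4, -⟩ := (OB_hb hS).1 t1
  exact k t (hK t t3.1 t4 t2) t4 y (mem_hb.1 hy.1).2.1 (mem_hb.1 hy).2.1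

variable {E : Type*} [Group E] {π : E →* S.Isom} (hc : π.ker ≤ center E) (hr : π.range = S.E)
include hc hr

theorem lcm_long (hu : S.q u = 0) (hv : S.q v = 0) (uv : S.h u v = 0) {g : S.Isom} (hg : g ∈ S.E) (gu : g.1 u = u) (gv : g.1 v = v) :
    LCm π g (ox S u v) := by
  by_cases h : u ≠ 0 ∧ v ∉ F ∙ u
  swap
  · have : ox S u v = 1 := by
      rcases not_and_or.1 h with h | h
      · obtain rfl := not_not.1 h; exact isom_ext fun x => by simp [ox_apply hu uv]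
      · obtain ⟨c, rfl⟩ := Submodule.mem_span_singleton.1 (not_not.1 h); exact ox_line hu c
    exact fun x y _ hy => mem_center_iff.1 (hc (hy.trans this)) x
  obtain ⟨u', v', H, H', m, m'⟩ := frame hS hu hv uv h.1 h.2
  have hK : ∀ g ∈ S.E, g.1 u = u → g.1 v = v → g ∈ centralizer {ox S u v} ⊓ π.range := fun g h1 h2 h3 =>
    ⟨mem_centralizer_singleton_iff.2 (by rw [← mul_inv_eq_iff_eq_mul, ox_conj, h2, h3]), hr.ge h1⟩
  obtain ⟨-, a2, a3⟩ := fix_step hS (B := ⊤) H trivial ⟨hg, by simp [hS.perp_top, fix_bot]⟩ gu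
  have a4 : S.h v (g.1 u' - u') = 0 := by rw [map_sub, ← gv, isom_h, gv, sub_self]
  have a5 : ((ox S u (g.1 u' - u'))⁻¹ * g).1 v = v := by
    rw [isom_mul_apply, gv, iapp (ox_fix uv (S.h_swap_zero a4))]
  obtain ⟨b1, b2, b3⟩ := fix_step hS H' m a3 a5
  have c1 := ox_mem_D hS hM H H' m m' hK a2 a4
  have c2 := ox_mem_D hS hM H' H (mem_hb.2 ⟨trivial, S.h_swap_zero uv, S.h_swap_zero (mem_hb.1 m').2.1⟩)
    (mem_hb.2 ⟨trivial, S.h_swap_zero (mem_hb.1 m).2.2, S.h_swap_zero (mem_hb.1 m').2.2⟩) (fun g h1 h2 h3 => hK g h1 h3 h2) b2 (mem_hb.1 b1).2.1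
  have c3 : OB S (hb S (hb S ⊤ u u') v v') ≤ centralizer {ox S u v} ⊓ π.range := fun t ht =>
    hK t ht.1 ((OB_hb hS).1 ((OB_hb hS).1 ht).1).2.1 ((OB_hb hS).1 ht).2.1
  simpa using lcm_of hc (mul_mem c1 (mul_mem c2 (commutator_mono c3 c3 (OB_perf hS (rm_of hS hM H H' m m') b3))))

end H24
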