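import Cfsg.Agent.H24.Om1

/-! Central extensions of orthogonal groups: canonical lifts of long root elements (`Can`), equivariant sections over the Eichler
groups (`exists_psi`) and the `p`-part of stem extensions (`om_p`). -/

set_option autoImplicit false

namespace H24
open H11 H11.PForm Subgroup Module
open scoped commutatorElement

universe u
variable {F : Type*} [Field F] {V : Type u} [AddCommGroup V] [Module F V] {S : PForm (orthP F) V} {E : Type*} [Group E]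
variable {B P : Submodule F V} {e f a b u v w x y : V}

theorem grp_sq {x1 y1 x2 y2 : E} (hA : ⁅x1, y1⁆ ∈ center E) (hB : ⁅x2, y2⁆ ∈ center E) (hD : ⁅x1, y2⁆ = ⁅y1, x2⁆)
    (h1 : Commute x2 ⁅x1, y2⁆) (h2 : Commute y2 ⁅x1, y2⁆) (h : ⁅x2 * x1, y2 * y1⁆ = ⁅x2, y2⁆) : ⁅x1, y1⁆ = 1 := by
  rw [show ⁅x2 * x1, y2 * y1⁆ = x2 * (⁅x1, y2⁆ * (y2 * ⁅x1, y1⁆ * y2⁻¹)) * x2⁻¹ * (⁅x2, y2⁆ * (y2 * ⁅y1, x2⁆⁻¹ * y2⁻¹)) by group,
    ← hD, h2.inv_right.mul_inv_cancel, mem_center_iff.1 hA y2, mul_inv_cancel_right,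
    (h1.mul_right (mem_center_iff.1 hA x2)).mul_inv_cancel, ← mem_center_iff.1 hB, ← mul_assoc, mul_eq_right, mem_center_iff.1 hA, mul_inv_cancel_right] at h
  exact h

theorem grp_five {p g g' a a' : E} (c1 : Commute p (g' * g * (a * a'))) (c2 : Commute g' (g * a)) :
    p⁻¹ * g' * g * (a * a' * p) = g * a * (g' * a') := by
  rw [show p⁻¹ * g' * g * (a * a' * p) = p⁻¹ * (g' * g * (a * a') * p) by group, ← c1.eq, inv_mul_cancel_left, ← mul_assoc,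
    mul_assoc g', c2.eq, mul_assoc]

theorem add_sub' {g : V → E} (h : ∀ x ∈ P, ∀ y ∈ P, g (x + y) = g x * g y) : g 0 = 1 ∧ ∀ x ∈ P, g (-x) = (g x)⁻¹ := by
  have : g 0 = 1 := by simpa using h 0 P.zero_mem 0 P.zero_mem
  exact ⟨this, fun x hx => eq_inv_of_mul_eq_one_left (by rw [← h _ (neg_mem hx) _ hx, neg_add_cancel, this])⟩

theorem add_ext (H : S.IsHyp a b) (ha : a ∈ P) (hb : b ∈ P) {g g' : V → E} (h : ∀ x ∈ P, ∀ y ∈ P, g (x + y) = g x * g y)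
    (h' : ∀ x ∈ P, ∀ y ∈ P, g' (x + y) = g' x * g' y) (h0 : ∀ x ∈ P, S.q x = 0 → g x = g' x) (hx : x ∈ P) : g x = g' x :=
  (gen_sing H ha hb (T := ⟨⟨⟨{x | x ∈ P ∧ g x = g' x}, fun {x y} hx hy => ⟨add_mem hx.1 hy.1, by
    rw [h _ hx.1 _ hy.1, h' _ hx.1 _ hy.1, hx.2, hy.2]⟩⟩, P.zero_mem, by rw [(add_sub' h).1, (add_sub' h').1]⟩,
    fun {x} hx => ⟨neg_mem hx.1, by rw [(add_sub' h).2 _ hx.1, (add_sub' h').2 _ hx.1, hx.2]⟩⟩) (fun x hx h => ⟨hx, h0 x hx h⟩) hx).2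

theorem biad {κ : V → V → E} (hl : ∀ w ∈ P, ∀ v ∈ P, ∀ v' ∈ P, κ (v + v') w = κ v w * κ v' w)
    (hr : ∀ v ∈ P, ∀ w ∈ P, ∀ w' ∈ P, κ v (w + w') = κ v w * κ v w')
    (hz : ∀ v ∈ P, ∀ w ∈ P, S.h v w = 0 → S.q v = 0 ∨ S.q w = 0 → κ v w = 1) (H : S.IsHyp a b) (ha : a ∈ P) (hb : b ∈ P)
    (hq : ∀ c, ∃ z ∈ P, S.h a z = 0 ∧ S.h b z = 0 ∧ S.q z = c) (hv : v ∈ P) (hw : w ∈ P) : κ v w = κ (S.h v w • b) a := by
  have r1 : ∀ v ∈ P, S.q v = 0 → ∀ w ∈ P, ∀ w' ∈ P, S.h v w = S.h v w' → κ v w = κ v w' := fun v hv h0 w hw w' hw' e => by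
    rw [← add_sub_cancel w' w, hr v hv _ hw' _ (sub_mem hw hw'), hz v hv _ (sub_mem hw hw') (by simp [e]) (.inl h0), mul_one]
  have l1 : ∀ w ∈ P, S.q w = 0 → ∀ v ∈ P, ∀ v' ∈ P, S.h v w = S.h v' w → κ v w = κ v' w := fun w hw h0 v hv v' hv' e => by
    rw [← add_sub_cancel v' v, hl w hw _ hv' _ (sub_mem hv hv'), hz _ (sub_mem hv hv') w hw (by simp [e]) (.inr h0), mul_one]
  have key : ∀ a ∈ P, ∀ b ∈ P, S.IsHyp a b → (∀ c, ∃ z ∈ P, S.h a z = 0 ∧ S.h b z = 0 ∧ S.q z = c) → ∀ v ∈ P, S.q v = 0 → S.h v b ≠ 0 →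
      κ v w = κ (S.h v w • b) a := fun a ha b hb H hq v hv h0 h1 => by
    obtain ⟨m, hm⟩ : ∃ m, S.h v w = S.h v b * m := ⟨_, (mul_div_cancel₀ _ h1).symm⟩
    obtain ⟨z, hz, z1, z2, z3⟩ := hq (-m)
    have sa := P.smul_mem (S.h v b) ha
    have c := add_mem (add_mem ha (P.smul_mem m hb)) hz
    have q1 : ∀ {a} (c : F), S.q a = 0 → S.q (c • a) = 0 := fun c h => by simp [orth_q_smul, h]
    have q2 : S.q (a + m • b + z) = 0 := by simp [orth_q_add, orth_q_smul, H.orth_q_e, H.orth_q_f, H.h_ef, z1, z2, z3]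
    rw [r1 v hv h0 w hw _ (P.smul_mem m hb) (by simp [hm, mul_comm]), l1 _ (P.smul_mem m hb) (q1 _ H.orth_q_f) v hv _ sa (by simp [H.h_ef]),
      r1 _ sa (q1 _ H.orth_q_e) _ (P.smul_mem m hb) _ c (by simp [H.h_ee, H.h_ef, z1, mul_comm]),
      l1 _ c q2 _ sa _ (P.smul_mem (S.h v w) hb) (by simp [H.h_ee, H.h_ff, H.h_ef, H.orth_h_fe, z1, z2, hm, mul_comm]),
      r1 _ (P.smul_mem _ hb) (q1 _ H.orth_q_f) _ c _ ha (by simp [H.h_ff, z2])]
  have ad : ∀ x ∈ P, ∀ y ∈ P, κ (S.h (x + y) w • b) a = κ (S.h x w • b) a * κ (S.h y w • b) a := fun x _ y _ => by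
    rw [map_add, LinearMap.add_apply, add_smul, hl a ha _ (P.smul_mem _ hb) _ (P.smul_mem _ hb)]
  refine add_ext H ha hb (g := fun v => κ v w) (g' := fun v => κ (S.h v w • b) a) (hl w hw) ad (fun v hv h0 => ?_) hv
  by_cases h1 : S.h v b = 0
  swap
  · exact key a ha b hb H hq v hv h0 h1
  by_cases h2 : S.h v a = 0
  · have := key a ha b hb H hq _ (add_mem hv ha) (by simp [orth_q_add, h0, H.orth_q_e, h2]) (by simp [h1, H.h_ef])
    rwa [hl w hw _ hv _ ha, ad _ hv _ ha, key a ha b hb H hq a ha H.orth_q_e (by simp [H.h_ef]), mul_left_inj] at this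
  · obtain ⟨z, hz, z1, z2, z3⟩ := hq (-1)
    have c := add_mem (add_mem ha hb) hz
    have q2 : S.q (a + b + z) = 0 := by simp [orth_q_add, H.orth_q_e, H.orth_q_f, H.h_ef, z1, z2, z3]
    rw [key b hb a ha (hyp_swap H) (fun c => let ⟨z, h1, h2, h3, h4⟩ := hq c; ⟨z, h1, h3, h2, h4⟩) v hv h0 h2,
      r1 _ (P.smul_mem _ ha) (by simp [orth_q_smul, H.orth_q_e]) _ hb _ c (by simp [H.h_ee, z1]),
      l1 _ c q2 _ (P.smul_mem _ ha) _ (P.smul_mem (S.h v w) hb) (by simp [H.h_ee, H.h_ff, H.h_ef, H.orth_h_fe, z1, z2]),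
      r1 _ (P.smul_mem _ hb) (by simp [orth_q_smul, H.orth_q_f]) _ c _ ha (by simp [H.h_ff, z2])]

theorem ox_ox (he : S.q e = 0) (ha : S.q a = 0) (ea : S.h e a = 0) (eu : S.h e u = 0) (au : S.h a u = 0) (ev : S.h e v = 0) (av : S.h a v = 0) :
    ⁅ox S e u, ox S a v⁆ = ox S e (S.h u v • a) := by
  rw [← commutatorElement_inv, ox_comm he eu (ox_fix (S.h_swap_zero ea) (S.h_swap_zero ev)), ← ox_neg he (by simp [ox_apply ha av, au, ea]),
    ox_apply ha av]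
  simp [au, S.orth_symm u v]

variable {π : E →* S.Isom} {φ : V → V → E}

variable (π φ) in
/-- canonical lifts of long root elements -/
def Can : Prop := ∀ {e a u v}, S.q e = 0 → S.q a = 0 → S.h e a = 0 → S.h e u = 0 → S.h a u = 0 → S.h e v = 0 → S.h a v = 0 →
  ∀ {x y}, π x = ox S e u → π y = ox S a v → ⁅x, y⁆ = φ e (S.h u v • a)

variable [FiniteDimensional F V] [Finite F] (hS : S.Nondeg) (hM : Mn S)
include hS hM

omit [Finite F] in
theorem room (he : S.q e = 0) (ha : S.q a = 0) (hb : S.q b = 0) (ea : S.h e a = 0) (eb : S.h e b = 0) (ab : S.h a b = 0) :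
    ∃ X : Submodule F V, (S.restrict X).Nondeg ∧ 2 ≤ finrank F X ∧ (a = b → 4 ≤ finrank F X) ∧
      ∀ x ∈ X, S.h e x = 0 ∧ S.h a x = 0 ∧ S.h b x = 0 := by
  classical
  obtain ⟨X, h1, h2, h3, -⟩ := (ts_span (S := S) (s := ({e, a, b} : Finset V)) (by simp [orth_sing, he, ha, hb]) (by
    simp [hself he, hself ha, hself hb, ea, eb, ab, S.h_swap_zero ea, S.h_swap_zero eb, S.h_swap_zero ab])).exists_compl hS
  have h4 : finrank F (Submodule.span F _) ≤ _ := finrank_span_finset_le_card (R := F) ({e, a, b} : Finset V)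
  have := hM.1
  have := Finset.card_le_three (a := e) (b := a) (c := b)
  refine ⟨X, h1, by omega, ?_, fun x hx => by simpa using S.mem_perp_span.1 (h2 hx)⟩
  rintro rfl
  have : ({e, a, a} : Finset V).card ≤ 2 := by simpa using Finset.card_le_two
  omega

omit [Finite F] in
theorem room1 (he : S.q e = 0) (ha : S.q a = 0) (hb : S.q b = 0) (ea : S.h e a = 0) (eb : S.h e b = 0) (ab : S.h a b = 0) :
    ∃ u v, S.h u v = 1 ∧ (S.h e u = 0 ∧ S.h a u = 0 ∧ S.h b u = 0) ∧ S.h e v = 0 ∧ S.h a v = 0 ∧ S.h b v = 0 :=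
  let ⟨_, h1, h2, _, h3⟩ := room hS hM he ha hb ea eb ab
  let ⟨u, hu, v, hv, h⟩ := pair_mem h1 (by omega) 1
  ⟨u, v, h, h3 u hu, h3 v hv⟩

variable (hc : π.ker ≤ center E) (hr : π.range = S.E)
include hc hr

theorem exists_can : ∃ φ, Can π φ := by
  choose xl hxl using fun e w => (hr.ge (ox_E (S := S) e w) : ∃ x, π x = _)
  have ind : ∀ {e a u v u' v'}, S.q e = 0 → S.q a = 0 → S.h e a = 0 → S.h e u = 0 → S.h a u = 0 → S.h e v = 0 → S.h a v = 0 →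
      S.h e u' = 0 → S.h a u' = 0 → S.h e v' = 0 → S.h a v' = 0 → S.h u v = S.h u' v' → ⁅xl e u, xl a v⁆ = ⁅xl e u', xl a v'⁆ := by
    intro e a u v u' v' he ha ea eu au ev av eu' au' ev' av' h
    obtain ⟨X, h1, -, h2, h3⟩ := room hS hM he ha ha ea ea (hself ha)
    obtain ⟨c, hc', d, hd, H⟩ := hyp_of_dim h1 (by have := h2 rfl; omega)
    have k := hb_nd h1 H hc' hd
    have m : ∀ x ∈ X, x ∈ S.perp (Submodule.span F {e, a}) := fun x hx => S.mem_perp_pair.2 ⟨(h3 x hx).1, (h3 x hx).2.1⟩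
    have L : ∀ {u v}, u ∈ S.perp (Submodule.span F {e, a}) → v ∈ S.perp (Submodule.span F {e, a}) → ∀ x, (π x).1 e = e → (π x).1 a = a →
        x * ⁅xl e u, xl a v⁆ * x⁻¹ = ⁅xl e u, xl a v⁆ := fun {u v} hu hv x h1 h2 => by
      rw [S.mem_perp_pair] at hu hv
      exact (lcm_long hS hM hc hr (v := S.h u v • a) he (by simp [orth_q_smul, ha]) (by simp [ea]) (hr.le ⟨x, rfl⟩) h1 (by rw [map_smul, h2]) x _ rfl (by
        rw [map_commutatorElement, hxl, hxl, ox_ox he ha ea hu.1 hu.2 hv.1 hv.2])).mul_inv_cancel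
    have b := @biad F _ V _ _ S E _ (S.perp (Submodule.span F {e, a})) c d (κ := fun u v => ⁅xl e u, xl a v⁆)
      (hl := fun w hw v hv v' hv' => by
        have h1 := S.mem_perp_pair.1 hv
        have h2 := S.mem_perp_pair.1 hv'
        rw [← L hv hw (xl e v') (hxl _ _ ▸ ox_self _ _) (hxl _ _ ▸ ox_fix ea (S.h_swap_zero h2.2)),
          H13.comm_congr hc (a' := xl e v' * xl e v) (by rw [map_mul, hxl, hxl, hxl, add_comm, ox_add he h2.1 h1.1]) rfl]; group)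
      (hr := fun v hv w hw w' hw' => by
        have h1 := S.mem_perp_pair.1 hw
        have h2 := S.mem_perp_pair.1 hw'
        rw [← L hv hw' (xl a w) (hxl _ _ ▸ ox_fix (S.h_swap_zero ea) (S.h_swap_zero h1.1)) (hxl _ _ ▸ ox_self _ _),
          H13.comm_congr hc (b' := xl a w * xl a w') rfl (by rw [map_mul, hxl, hxl, hxl, ox_add ha h1.2 h2.2])]; group)
      (hz := fun v hv w hw h h' => by
        have h1 := S.mem_perp_pair.1 hv
        have h2 := S.mem_perp_pair.1 hw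
        refine commutatorElement_eq_one_iff_commute.2 (h'.elim (fun h' => ?_) fun h' => ?_)
        · exact (lcm_long hS hM hc hr he h' h1.1 (ox_E a w) (ox_fix (S.h_swap_zero ea) (S.h_swap_zero h2.1))
            (ox_fix h1.2 (S.h_swap_zero h)) _ _ (hxl _ _) (hxl _ _)).symm
        · exact lcm_long hS hM hc hr ha h' h2.2 (ox_E e v) (ox_fix ea (S.h_swap_zero h1.2)) (ox_fix h2.1 h) _ _ (hxl _ _) (hxl _ _))
      (H := H) (ha := m c hc') (hb := m d hd) (hq := fun t => let ⟨z, hz, e⟩ := orth_exists_q_eq_mem k.1 (by have := h2 rfl; omega) t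
        ⟨z, m z hz.1, (mem_hb.1 hz).2.1, (mem_hb.1 hz).2.2, e⟩)
    exact (b _ _ (S.mem_perp_pair.2 ⟨eu, au⟩) (S.mem_perp_pair.2 ⟨ev, av⟩)).trans
      (h ▸ (b _ _ (S.mem_perp_pair.2 ⟨eu', au'⟩) (S.mem_perp_pair.2 ⟨ev', av'⟩)).symm)
  have : ∀ e a, ∃ x, S.q e = 0 → S.q a = 0 → S.h e a = 0 → ∀ u v, S.h u v = 1 → S.h e u = 0 → S.h a u = 0 → S.h e v = 0 → S.h a v = 0 →
      ⁅xl e u, xl a v⁆ = x := fun e a => by
    by_cases h : S.q e = 0 ∧ S.q a = 0 ∧ S.h e a = 0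
    · obtain ⟨u, v, h1, h2, h3⟩ := room1 hS hM h.1 h.2.1 h.2.1 h.2.2 h.2.2 (hself h.2.1)
      exact ⟨_, fun he ha ea u' v' h4 _ _ _ _ => ind he ha ea ‹_› ‹_› ‹_› ‹_› h2.1 h2.2.1 h3.1 h3.2.1 (h4.trans h1.symm)⟩
    · exact ⟨1, fun he ha ea => (h ⟨he, ha, ea⟩).elim⟩
  choose φ hφ using this
  refine ⟨φ, fun {e a u v} he ha ea eu au ev av x y hx hy => ?_⟩
  obtain ⟨u', v', h1, h2, h3⟩ := room1 hS hM he ha ha ea ea (hself ha)
  rw [← hφ e _ he (by simp [orth_q_smul, ha]) (by simp [ea]) u' v' h1 h2.1 (by simp [h2.2.1]) h3.1 (by simp [h3.2.1]),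
    H13.comm_congr hc (hx.trans (hxl _ _).symm) (hy.trans (hxl _ _).symm),
    ind he ha ea eu au ev av h2.1 h2.2.1 (v' := S.h u v • v') (by simp [h3.1]) (by simp [h3.2.1]) (by simp [h1])]
  exact H13.comm_congr hc rfl (by rw [hxl, hxl, ox_smul ha h3.2.1])

variable (h : Can π φ)
include h

omit hc [Finite F] in
theorem Can.ex (he : S.q e = 0) (ha : S.q a = 0) (hb : S.q b = 0) (ea : S.h e a = 0) (eb : S.h e b = 0) (ab : S.h a b = 0) :
    ∃ u v x, (S.h e u = 0 ∧ S.h a u = 0 ∧ S.h b u = 0) ∧ (S.h e v = 0 ∧ S.h a v = 0 ∧ S.h b v = 0) ∧ S.h u v = 1 ∧ π x = ox S e u ∧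
      ∀ c, S.q c = 0 → S.h e c = 0 → S.h c u = 0 → S.h c v = 0 → ∀ y, π y = ox S c v → φ e c = ⁅x, y⁆ := by
  obtain ⟨u, v, h1, h2, h3⟩ := room1 hS hM he ha hb ea eb ab
  obtain ⟨x, hx⟩ := hr.ge (ox_E (S := S) e u)
  exact ⟨u, v, x, h2, h3, h1, hx, fun c c1 c2 c3 c4 y hy => by rw [h he c1 c2 h2.1 c3 h3.1 c4 hx hy, h1, one_smul]⟩

omit hc [Finite F] in
theorem Can.lift (he : S.q e = 0) (ha : S.q a = 0) (ea : S.h e a = 0) : π (φ e a) = ox S e a := by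
  obtain ⟨u, v, x, h1, h2, h3, hx, h4⟩ := h.ex hS hM hr he ha ha ea ea (hself ha)
  obtain ⟨y, hy⟩ := hr.ge (ox_E (S := S) a v)
  rw [h4 a ha ea h1.2.1 h2.2.1 y hy, map_commutatorElement, hx, hy, ox_ox he ha ea h1.1 h1.2.1 h2.1 h2.2.1, h3, one_smul]

omit hc [Finite F] in
theorem Can.conj (he : S.q e = 0) (ha : S.q a = 0) (ea : S.h e a = 0) (g : E) : g * φ e a * g⁻¹ = φ ((π g).1 e) ((π g).1 a) := by
  obtain ⟨u, v, x, h1, h2, h3, hx, h4⟩ := h.ex hS hM hr he ha ha ea ea (hself ha)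
  obtain ⟨y, hy⟩ := hr.ge (ox_E (S := S) a v)
  rw [h4 a ha ea h1.2.1 h2.2.1 y hy, conjugate_commutatorElement, h (e := (π g).1 e) (a := (π g).1 a) (u := (π g).1 u) (v := (π g).1 v)
    (by simpa) (by simpa) (by simpa) (by simpa using h1.1) (by simpa using h1.2.1) (by simpa using h2.1) (by simpa using h2.2.1)
    (by simp [hx, ox_conj]) (by simp [hy, ox_conj]), isom_h, h3, one_smul]

theorem Can.add (he : S.q e = 0) (ha : S.q a = 0) (hb : S.q b = 0) (ea : S.h e a = 0) (eb : S.h e b = 0) (ab : S.h a b = 0) :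
    φ e (a + b) = φ e a * φ e b := by
  obtain ⟨u, v, x, h1, h2, h3, hx, h4⟩ := h.ex hS hM hr he ha hb ea eb ab
  obtain ⟨y, hy⟩ := hr.ge (ox_E (S := S) a v)
  obtain ⟨y', hy'⟩ := hr.ge (ox_E (S := S) b v)
  obtain ⟨z, hz⟩ := hr.ge (ox_E (S := S) a (-S.q v • b))
  have c1 := lcm_long hS hM hc hr (v := -S.q v • b) ha (by simp [orth_q_neg, orth_q_smul, hb]) (by simp [ab]) (ox_E e u)
    (ox_fix ea (S.h_swap_zero h1.2.1)) (ox_fix (by simp [eb]) (by simp [S.h_swap_zero h1.2.2])) x z hx hz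
  have c2 := lcm_long hS hM hc hr he hb eb (ox_E a v) (ox_fix (S.h_swap_zero ea) (S.h_swap_zero h2.1)) (ox_fix ab (S.h_swap_zero h2.2.2))
    y _ hy (h.lift hS hM hr he hb eb)
  rw [h4 (a + b) (by simp [orth_q_add, ha, hb, ab]) (by simp [ea, eb]) (by simp [h1.2.1, h1.2.2]) (by simp [h2.2.1, h2.2.2]) (y * y' * z)
    (by rw [map_mul, map_mul, hy, hy', hz, ox_add_left ha hb ab h2.2.1 h2.2.2]), ← c2.mul_inv_cancel, h4 a ha ea h1.2.1 h2.2.1 y hy,
    h4 b hb eb h1.2.2 h2.2.2 y' hy', show ⁅x, y * y' * z⁆ = x * y * y' * (z * x⁻¹ * z⁻¹) * y'⁻¹ * y⁻¹ by group, c1.symm.inv_right.mul_inv_cancel]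
  group

theorem Can.cm (H : S.IsHyp e f) (hv : v ∈ hb S ⊤ e f) (hw : w ∈ hb S ⊤ e f) : LCm π (ox S e v) (ox S e w) := by
  have he := H.orth_q_e
  have k1 := hb_nd (top_nd hS) H trivial trivial
  have := hM.1
  rw [finrank_top] at k1
  have s1 : ∀ v ∈ hb S ⊤ e f, S.q v = 0 → ∀ w ∈ hb S ⊤ e f, S.q w = 0 → LCm π (ox S e v) (ox S e w) := fun v hv v0 w hw w0 => by
    have ev := (mem_hb.1 hv).2.1
    have ew := (mem_hb.1 hw).2.1
    by_cases h0 : S.h v w = 0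
    · exact lcm_long hS hM hc hr he w0 ew (ox_E _ _) (ox_self _ _) (ox_fix ew h0)
    have H' := isHyp_of_ne ((orth_sing _ _).2 v0) ((orth_sing _ _).2 w0) h0
    have k2 := hb_nd k1.1 H' hv (Submodule.smul_mem _ _ hw)
    obtain ⟨c, hc', d, hd, H2⟩ := hyp_of_dim k2.1 (by omega)
    obtain ⟨⟨-, ec, -⟩, vc, wc⟩ := (mem_hb.trans (and_congr_left' mem_hb)).1 hc'
    obtain ⟨⟨-, ed, -⟩, vd, wd⟩ := (mem_hb.trans (and_congr_left' mem_hb)).1 hd
    replace wc : S.h w c = 0 := by simpa [h0] using wc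
    replace wd : S.h w d = 0 := by simpa [h0] using wd
    have c0 := H2.orth_q_e
    intro x1 y1 hx1 hy1
    obtain ⟨x2, hx2⟩ := hr.ge (ox_E (S := S) c v)
    obtain ⟨y2, hy2⟩ := hr.ge (ox_E (S := S) c w)
    obtain ⟨g, hg⟩ := hr.ge (ox_E (S := S) e (-d))
    have cv := S.h_swap_zero vc
    have cw := S.h_swap_zero wc
    have z : ∀ {e x y}, S.q e = 0 → S.h e v = 0 → S.h e w = 0 → π x = ox S e v → π y = ox S e w → ⁅x, y⁆ ∈ center E :=
      fun he ev ew hx hy => hc (by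
        rw [MonoidHom.mem_ker, map_commutatorElement, hx, hy, commutatorElement_eq_one_iff_mul_comm, ← ox_add he ev ew, ← ox_add he ew ev, add_comm])
    have e1 := h he c0 ec ev cv ew cw hx1 hy2
    have L : ∀ u x, S.h e u = 0 → S.h c u = 0 → π x = ox S c u → Commute x ⁅x1, y2⁆ := fun u x eu cu hx =>
      lcm_long hS hM hc hr (v := S.h v w • c) he (by simp [orth_q_smul, c0]) (by simp [ec]) (ox_E c u) (ox_fix (S.h_swap_zero ec) (S.h_swap_zero eu))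
        (ox_fix (by simp [hself c0]) (by simp [S.h_swap_zero cu])) x _ hx (e1 ▸ h.lift hS hM hr he (by simp [orth_q_smul, c0]) (by simp [ec]))
    have G : ∀ {u x x'}, S.q u = 0 → S.h e u = 0 → S.h c u = 0 → S.h u d = 0 → π x = ox S e u → π x' = ox S c u → π (x' * x) = π (g * x' * g⁻¹) :=
      fun {u x x'} u0 eu cu ud hx hx' => by
        simp only [map_mul, map_inv, hx, hx', hg, ox_conj]
        rw [ox_fix eu (by simp [S.h_swap_zero ud]), ox_apply he (by simp [ed]), show c + S.h e c • -d - (S.h (-d) c + S.q (-d) * S.h e c) • e = c + e by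
          simp [ec, H2.orth_h_fe], ox_add_left c0 he (S.h_swap_zero ec) cu eu, u0, neg_zero, zero_smul, ox_zero, mul_one]
    refine commutatorElement_eq_one_iff_commute.1 (grp_sq (z he ev ew hx1 hy1) (z c0 cv cw hx2 hy2) ?_ (L v x2 ev cv hx2) (L w y2 ew cw hy2) ?_)
    · rw [e1, h he c0 ec ew cw ev cv hy1 hx2, S.orth_symm]
    · rw [H13.comm_congr hc (G v0 ev cv vd hx1 hx2) (G w0 ew cw wd hy1 hy2), ← conjugate_commutatorElement, mem_center_iff.1 (z c0 cv cw hx2 hy2),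
        mul_inv_cancel_right]
  obtain ⟨a, ha, b, hb', H'⟩ := hyp_of_dim k1.1 (by omega)
  have s2 : ∀ g, (∀ v ∈ hb S ⊤ e f, S.q v = 0 → LCm π (ox S e v) g) → ∀ v ∈ hb S ⊤ e f, LCm π (ox S e v) g := by
    rintro g hg v hv x y hx rfl
    obtain ⟨-, x', h1, h2⟩ := gen_sing H' ha hb' (T := oT he ((centralizer {y}).map π)) (fun v hv v0 =>
      let ⟨x, hx⟩ := hr.ge (ox_E (S := S) e v); ⟨(mem_hb.1 hv).2.1, x, mem_centralizer_singleton_iff.2 (hg v hv v0 x y hx rfl), hx⟩) hv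
    rw [← commutatorElement_eq_one_iff_commute, H13.comm_congr hc (hx.trans h2.symm) rfl, commutatorElement_eq_one_iff_commute]
    exact mem_centralizer_singleton_iff.1 h1
  exact s2 _ (fun v hv v0 => (s2 _ (fun w hw w0 => (s1 v hv v0 w hw w0).symm) w hw).symm) v hv

theorem Can.ext (H : S.IsHyp e f) : ∃ Ψ : V → E, (∀ x ∈ hb S ⊤ e f, ∀ y ∈ hb S ⊤ e f, Ψ (x + y) = Ψ x * Ψ y) ∧
    (∀ x ∈ hb S ⊤ e f, π (Ψ x) = ox S e x) ∧ ∀ x ∈ hb S ⊤ e f, S.q x = 0 → Ψ x = φ e x := by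
  have he := H.orth_q_e
  have k1 := hb_nd (top_nd hS) H trivial trivial
  have := hM.1
  rw [finrank_top] at k1
  obtain ⟨a, ha, b, hb', H'⟩ := hyp_of_dim k1.1 (by omega)
  have k2 := hb_nd k1.1 H' ha hb'
  obtain ⟨c, hc', d, hd, H2⟩ := hyp_of_dim k2.1 (by omega)
  choose G hG using fun v => (hr.ge (ox_E (S := S) a v) : ∃ x, π x = _)
  have a0 := H'.orth_q_e
  have b0 := H'.orth_q_f
  have pe : ∀ {x}, x ∈ hb S ⊤ e f → S.h e x = 0 := fun hx => (mem_hb.1 hx).2.1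
  have q1 : ∀ {a} (c : F), S.q a = 0 → S.q (c • a) = 0 := fun c h => by simp [orth_q_smul, h]
  let Q : Subgroup E := ⟨⟨⟨{x | ∃ w ∈ hb S ⊤ e f, π x = ox S e w}, fun ⟨v, hv, e1⟩ ⟨w, hw, e2⟩ => ⟨_, add_mem hv hw, by
    rw [map_mul, e1, e2, ox_add he (pe hv) (pe hw)]⟩⟩, 0, zero_mem _, by rw [map_one, ox_zero]⟩, fun ⟨v, hv, e1⟩ =>
      ⟨_, neg_mem hv, by rw [map_inv, e1, ox_neg he (pe hv)]⟩⟩
  have cm : ∀ {x y}, x ∈ Q → y ∈ Q → Commute x y := fun ⟨v, hv, e1⟩ ⟨w, hw, e2⟩ => h.cm hS hM hc hr H hv hw _ _ e1 e2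
  have lf : ∀ {u}, u ∈ hb S ⊤ e f → S.q u = 0 → ∀ s : F, π (φ e (s • u)) = ox S e (s • u) := fun hu u0 s =>
    h.lift hS hM hr he (q1 s u0) (by simp [pe hu])
  have mQ : ∀ {u}, u ∈ hb S ⊤ e f → S.q u = 0 → ∀ s : F, φ e (s • u) ∈ Q := fun hu u0 s => ⟨_, Submodule.smul_mem _ s hu, lf hu u0 s⟩
  have ad : ∀ {u v}, u ∈ hb S ⊤ e f → v ∈ hb S ⊤ e f → S.q u = 0 → S.q v = 0 → S.h u v = 0 → ∀ s t : F,
      φ e (s • u + t • v) = φ e (s • u) * φ e (t • v) := fun hu hv u0 v0 uv s t =>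
    h.add hS hM hc hr he (q1 s u0) (q1 t v0) (by simp [pe hu]) (by simp [pe hv]) (by simp [uv])
  have z0 : φ e 0 = 1 := by simpa using ad ha ha a0 a0 (hself a0) 0 0
  let γ : F → V → E := fun m v => ⁅G v, φ e (m • b)⁆
  let ψ : F → V → E := fun m v => γ m v * φ e ((m * S.q v) • a)
  have gb : ∀ m, ∀ v ∈ hb S (hb S ⊤ e f) a b, (ox S a v).1 (m • b) = m • b + (m • v - (m * S.q v) • a) := fun m v hv => by
    rw [map_smul, ox_apply a0 (mem_hb.1 hv).2.1, H'.h_ef, S.h_swap_zero (mem_hb.1 hv).2.2]; module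
  have ge : ∀ v ∈ hb S (hb S ⊤ e f) a b, (ox S a v).1 e = e := fun v hv => ox_fix (S.h_swap_zero (pe ha)) (S.h_swap_zero (pe hv.1))
  have γ1 : ∀ m, ∀ v ∈ hb S (hb S ⊤ e f) a b, π (γ m v) = ox S e (m • v - (m * S.q v) • a) := fun m v hv => by
    rw [map_commutatorElement, hG, lf hb' b0, ox_comm he (by simp [pe hb']) (ge v hv), gb m v hv, add_sub_cancel_left]
  have γQ : ∀ m, ∀ v ∈ hb S (hb S ⊤ e f) a b, γ m v ∈ Q := fun m v hv =>
    ⟨_, sub_mem (Submodule.smul_mem _ _ hv.1) (Submodule.smul_mem _ _ ha), γ1 m v hv⟩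
  have γ2 : ∀ m, ∀ v ∈ hb S (hb S ⊤ e f) a b, φ e (m • b + (m • v - (m * S.q v) • a)) = γ m v * φ e (m • b) := fun m v hv => by
    have := h.conj hS hM hr he (q1 m b0) (by simp [pe hb']) (G v)
    rw [hG, ge v hv, gb m v hv] at this
    rw [← this]; simp only [γ]; group
  have ψ1 : ∀ m, ∀ v ∈ hb S (hb S ⊤ e f) a b, ∀ w ∈ hb S (hb S ⊤ e f) a b, ψ m (v + w) = ψ m v * ψ m w := fun m v hv w hw => by
    have av := (mem_hb.1 hv).2.1
    have aw := (mem_hb.1 hw).2.1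
    have e1 := h he a0 (pe ha) (u := m • w - (m * S.q w) • a) (by simp [pe ha, pe hw.1]) (by simp [aw, hself a0]) (pe hv.1) av (γ1 m w hw) (hG v)
    have e2 : γ m (v + w) = ⁅γ m w, G v⁆⁻¹ * γ m w * γ m v := by
      simp only [γ]
      rw [H13.comm_congr hc (a := G (v + w)) (a' := G v * G w) (by rw [map_mul, hG, hG, hG, ox_add a0 av aw]) rfl]; group
    simp only [ψ]
    rw [e2, e1, show (m * S.q (v + w)) • a = ((m * S.q v) + (m * S.q w)) • a + S.h (m • w - (m * S.q w) • a) v • a by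
      simp [orth_q_add, av, S.orth_symm v w]; module, ad ha ha a0 a0 (hself a0), add_smul, ad ha ha a0 a0 (hself a0)]
    have c1 := cm (mQ ha a0 (S.h (m • w - (m * S.q w) • a) v)) (mul_mem (mul_mem (γQ m w hw) (γQ m v hv))
      (mul_mem (mQ ha a0 (m * S.q v)) (mQ ha a0 (m * S.q w))))
    have c2 := cm (γQ m w hw) (mul_mem (γQ m v hv) (mQ ha a0 (m * S.q v)))
    exact grp_five c1 c2
  have ψ2 : ∀ m, ∀ v ∈ hb S (hb S ⊤ e f) a b, S.q v = 0 → ψ m v = φ e (m • v) := fun m v hv v0 => by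
    have := γ2 m v hv
    simp only [ψ, v0, mul_zero, zero_smul, z0, mul_one, sub_zero] at this ⊢
    rwa [add_comm, ad hv.1 hb' v0 b0 (S.h_swap_zero (mem_hb.1 hv).2.2), mul_left_inj, eq_comm] at this
  have ψ3 : ∀ m, ∀ v ∈ hb S (hb S ⊤ e f) a b, ψ m v = ψ 1 (m • v) := fun m v hv =>
    add_ext H2 hc' hd (g' := fun v => ψ 1 (m • v)) (ψ1 m) (fun v hv w hw => by
      rw [smul_add, ψ1 1 _ (Submodule.smul_mem _ _ hv) _ (Submodule.smul_mem _ _ hw)])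
      (fun v hv v0 => by rw [ψ2 m v hv v0, ψ2 1 _ (Submodule.smul_mem _ _ hv) (q1 m v0), one_smul]) hv
  have ψ4 : ∀ v ∈ hb S (hb S ⊤ e f) a b, π (ψ 1 v) = ox S e v := fun v hv => by
    rw [map_mul, γ1 1 v hv, lf ha a0, ← ox_add he (by simp [pe ha, pe hv.1]) (by simp [pe ha]), sub_add_cancel, one_smul]
  have pr : ∀ x ∈ hb S ⊤ e f, x - S.h b x • a - S.h a x • b ∈ hb S (hb S ⊤ e f) a b := fun x hx =>
    ⟨sub_mem (sub_mem hx (Submodule.smul_mem _ _ ha)) (Submodule.smul_mem _ _ hb'), by simpa using H'.sub_mem_perp x⟩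
  refine ⟨fun x => φ e (S.h b x • a) * φ e (S.h a x • b) * ψ 1 (x - S.h b x • a - S.h a x • b), fun x hx y hy => ?_, fun x hx => ?_,
    fun x hx x0 => ?_⟩
  · beta_reduce
    rw [show x + y - S.h b (x + y) • a - S.h a (x + y) • b = x - S.h b x • a - S.h a x • b + (y - S.h b y • a - S.h a y • b) by simp; module,
      ψ1 1 _ (pr x hx) _ (pr y hy), map_add, map_add, add_smul, add_smul, ad ha ha a0 a0 (hself a0), ad hb' hb' b0 b0 (hself b0)]
    have m : ψ 1 _ ∈ Q := ⟨_, (pr x hx).1, ψ4 _ (pr x hx)⟩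
    have c1 := cm (mQ ha a0 (S.h b y)) (mul_mem (mQ hb' b0 (S.h a x)) m)
    have c2 := cm (mQ hb' b0 (S.h a y)) m
    simp only [mul_assoc]
    rw [← mul_assoc (φ e (S.h a y • b)), c2.eq, mul_assoc, ← mul_assoc (φ e (S.h a x • b)), ← mul_assoc (φ e (S.h b y • a)), c1.eq]
    simp only [mul_assoc]
  · rw [map_mul, map_mul, lf ha a0, lf hb' b0, ψ4 _ (pr x hx), ← ox_add he (by simp [pe ha]) (by simp [pe hb']),
      ← ox_add he (by simp [pe ha, pe hb']) (pe (pr x hx).1)]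
    congr 1; module
  · beta_reduce
    obtain ⟨v, hv, e1⟩ := hb_dec H' ha hb' hx
    generalize S.h b x = l, S.h a x = m at e1
    subst e1
    have e2 : l * m + S.q v = 0 := by
      simpa [orth_q_add, orth_q_smul, a0, b0, H'.h_ef, (mem_hb.1 hv).2.1, (mem_hb.1 hv).2.2, mul_comm] using x0
    rw [show l • a + m • b + v - l • a - m • b = v by module]
    obtain rfl | m0 := eq_or_ne m 0
    · rw [mul_zero, zero_add] at e2
      rw [zero_smul, z0, mul_one, add_zero, ψ2 1 v hv e2, ← ad ha hv.1 a0 e2 (mem_hb.1 hv).2.1, one_smul]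
    · have hv' := Submodule.smul_mem _ m⁻¹ hv
      have e3 : m * S.q (m⁻¹ • v) = -l := by rw [orth_q_smul]; field_simp; linear_combination e2
      have := γ2 m _ hv'
      rw [e3, smul_inv_smul₀ m0] at this
      rw [show l • a + m • b + v = m • b + (v - -l • a) by module, this, ← smul_inv_smul₀ m0 v, ← ψ3 m _ hv', smul_inv_smul₀ m0]
      simp only [ψ]
      rw [e3, ← mul_assoc, (cm (mul_mem (mul_mem (mQ ha a0 l) (mQ hb' b0 m)) (γQ m _ hv')) (mQ ha a0 _)).eq, ← mul_assoc, ← mul_assoc,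
        ← ad ha ha a0 a0 (hself a0), ← add_smul, neg_add_cancel, zero_smul, z0, one_mul, (cm (mQ hb' b0 m) (γQ m _ hv')).eq]

omit h in
theorem exists_psi (H : S.IsHyp e f) : ∃ Ψ : V → E, (∀ x ∈ hb S ⊤ e f, ∀ y ∈ hb S ⊤ e f, Ψ (x + y) = Ψ x * Ψ y) ∧
    (∀ x ∈ hb S ⊤ e f, π (Ψ x) = ox S e x) ∧ ∀ g, (π g).1 e = e → (π g).1 f = f → ∀ x ∈ hb S ⊤ e f, g * Ψ x * g⁻¹ = Ψ ((π g).1 x) := by
  obtain ⟨φ, h⟩ := exists_can hS hM hc hr
  obtain ⟨Ψ, h1, h2, h3⟩ := h.ext hS hM hc hr H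
  have k1 := hb_nd (top_nd hS) H trivial trivial
  have := hM.1
  rw [finrank_top] at k1
  obtain ⟨a, ha, b, hb', H'⟩ := hyp_of_dim k1.1 (by omega)
  refine ⟨Ψ, h1, h2, fun g ge gf x hx => ?_⟩
  have m : ∀ x ∈ hb S ⊤ e f, (π g).1 x ∈ hb S ⊤ e f := fun x hx =>
    mem_hb.2 ⟨trivial, by rw [← ge, isom_h, (mem_hb.1 hx).2.1], by rw [← gf, isom_h, (mem_hb.1 hx).2.2]⟩
  exact add_ext H' ha hb' (g := fun x => g * Ψ x * g⁻¹) (g' := fun x => Ψ ((π g).1 x)) (fun x hx y hy => by rw [h1 x hx y hy]; group)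
    (fun x hx y hy => by rw [map_add, h1 _ (m x hx) _ (m y hy)]) (fun x hx x0 => by
      rw [h3 x hx x0, h3 _ (m x hx) (by simpa), h.conj hS hM hr H.orth_q_e x0 (mem_hb.1 hx).2.1, ge]) hx

variable [Finite E]

omit h in
theorem om_syl (n : ℕ) : ∀ B : Submodule F V, (S.restrict B).Nondeg → finrank F B = 2 * (n + 1) → ∃ M : Subgroup E,
    (∀ x ∈ M, π x = 1 → x = 1) ∧ (∀ x ∈ M, π x ∈ S.fix (S.perp B)) ∧ Nat.card M = Nat.card F ^ ((n + 1) * n) := by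
  induction n with
  | zero => exact fun B _ _ => ⟨⊥, fun _ h _ => h, fun _ h => by rw [h, map_one]; exact one_mem _, by simp⟩
  | succ n ih =>
    intro B hB d
    obtain ⟨e, he, f, hf, H⟩ := hyp_of_dim hB (by omega)
    have k := hb_nd hB H he hf
    obtain ⟨M, m1, m2, m3⟩ := ih _ k.1 (by omega)
    obtain ⟨Ψ, h1, h2, h3⟩ := exists_psi hS hM hc hr H
    have le : hb S B e f ≤ hb S ⊤ e f := inf_le_inf_right _ le_top
    let η : Multiplicative (hb S B e f) →* E := MonoidHom.mk' (fun w => Ψ w.toAdd) fun a b => h1 _ (le a.toAdd.2) _ (le b.toAdd.2)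
    have fx : ∀ x ∈ M, (π x).1 e = e ∧ (π x).1 f = f := fun x hx =>
      ⟨m2 x hx e fun y hy => S.h_swap_zero (mem_hb.1 hy).2.1, m2 x hx f fun y hy => S.h_swap_zero (mem_hb.1 hy).2.2⟩
    have n1 : M ≤ normalizer η.range := fun x hx => mem_normalizer_fintype (by
      rintro _ ⟨w, rfl⟩
      exact ⟨.ofAdd ⟨(π x).1 w.toAdd, (hS.perp_perp (hb S B e f)).le fun y hy => by rw [← m2 x hx y hy, isom_h]; exact S.h_swap_zero (hy _ w.toAdd.2)⟩,
        (h3 x (fx x hx).1 (fx x hx).2 _ (le w.toAdd.2)).symm⟩)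
    have i1 : ∀ w, ∀ x ∈ M, π (η w * x) = 1 → w = 1 := fun w x hx e1 => by
      have e2 := congrArg (fun g : S.Isom => g.1 f) e1
      have := mem_hb.1 w.toAdd.2
      simp only [map_mul, isom_mul_apply, (fx x hx).2, isom_one_apply] at e2
      rw [show π (η w) = _ from h2 _ (le w.toAdd.2), ox_apply H.orth_q_e this.2.1, H.h_ef, S.h_swap_zero this.2.2, one_smul, add_sub_assoc,
        add_eq_left, sub_eq_zero] at e2
      have e3 := congrArg (S.h f) e2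
      rw [this.2.2, map_smul, H.orth_h_fe, smul_eq_mul, mul_one] at e3
      exact Subtype.ext (by rw [← e3, zero_smul] at e2; exact e2)
    have dec : ∀ x ∈ η.range ⊔ M, ∃ w, ∃ y ∈ M, η w * y = x := fun x hx => by
      rw [← SetLike.mem_coe, coe_mul_of_right_le_normalizer_left _ _ n1] at hx
      obtain ⟨_, ⟨w, rfl⟩, y, hy, rfl⟩ := hx
      exact ⟨w, y, hy, rfl⟩
    refine ⟨η.range ⊔ M, fun x hx e1 => ?_, fun x hx => ?_, ?_⟩
    · obtain ⟨w, y, hy, rfl⟩ := dec x hx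
      obtain rfl := i1 w y hy e1
      rw [map_one, one_mul] at e1 ⊢; exact m1 y hy e1
    · obtain ⟨w, y, hy, rfl⟩ := dec x hx
      rw [map_mul, show π (η w) = _ from h2 _ (le w.toAdd.2)]
      exact mul_mem (ox_OB he w.toAdd.2.1).2 (fix_anti (S.perp_anti inf_le_left) (m2 y hy))
    · rw [← Nat.card_congr (Equiv.ofBijective (fun p : Multiplicative (hb S B e f) × M =>
        (⟨η p.1 * p.2, mul_mem (mem_sup_left ⟨_, rfl⟩) (mem_sup_right p.2.2)⟩ : (η.range ⊔ M :))) ⟨?_, fun x =>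
          let ⟨w, y, hy, e⟩ := dec x.1 x.2; ⟨(w, ⟨y, hy⟩), Subtype.ext e⟩⟩), Nat.card_prod, m3, Nat.card_congr Multiplicative.toAdd,
        Module.natCard_eq_pow_finrank (K := F), ← pow_add, show finrank F (hb S B e f) = 2 * (n + 1) by omega]
      · congr 1; ring
      rintro ⟨w, x⟩ ⟨w', x'⟩ e1
      replace e1 : η w * x = η w' * x' := congrArg Subtype.val e1
      obtain rfl : w = w' := eq_of_inv_mul_eq_one (i1 (w⁻¹ * w') (x' * x⁻¹) (mul_mem x'.2 (inv_mem x.2)) (by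
        rw [map_mul η, map_inv, mul_assoc, ← mul_assoc (η w'), ← e1]; simp))
      exact Prod.ext rfl (Subtype.ext (mul_left_cancel e1))

omit h hM in
theorem om_p {m : ℕ} (d : finrank F V = 2 * m) (h4 : 4 ≤ m) (hm : ¬ S.HasTS m) (hp : π.ker ≤ commutator E) (p : ℕ) [Fact p.Prime] [CharP F p] :
    H12.CX π p := by
  obtain ⟨n, rfl⟩ : ∃ n, m = n + 1 := ⟨m - 1, by omega⟩
  obtain ⟨M, m1, -, m3⟩ := om_syl hS ⟨by omega, fun h => by_contra fun h' => hm ((show n + 1 = 4 by omega) ▸ h)⟩ hc hr n ⊤ (top_nd hS)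
    (by rw [finrank_top, d])
  have n4 : S.NotO4 := Or.inr (Or.inl (by omega))
  have c1 : Nat.card (M.map π) = Nat.card F ^ ((n + 1) * n) := m3 ▸ (Nat.card_congr (Equiv.ofBijective _ ⟨(injective_iff_map_eq_one _).2
    fun x hx => Subtype.ext (m1 x x.2 (congrArg Subtype.val hx)), π.subgroupMap_surjective M⟩)).symm
  have c2 := card_mul_rel (map_le_range π M)
  refine ⟨hc, _, ?_, fun z hz => pow_of_card hc hp (map_le_range π M) (comm_inf_ker hc m1 (g := 1) (by simp) le_sup_left) c2 hz⟩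
  have c3 := hS.orth_card_minus d hm
  rw [← card_mul_index (commutator S.Isom), hS.orth_commutator_eq_E n4 (by omega), ← hr, ← c2, c1, Nat.add_sub_cancel, mul_comm 2, mul_assoc, mul_assoc,
    mul_assoc, Nat.mul_right_inj (pow_ne_zero _ Nat.card_pos.ne'), hr, ← hS.orth_commutator_eq_E n4 (by omega)] at c3
  rw [hr, ← hS.orth_commutator_eq_E n4 (by omega)]
  have := Fintype.ofFinite F
  obtain ⟨r, hp', hq⟩ := FiniteField.card F p
  have q1 : ∀ i, 0 < i → p ∣ Nat.card F ^ i := fun i hi => by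
    rw [Nat.card_eq_fintype_card, hq, ← pow_mul]; exact dvd_pow_self _ (by positivity)
  have q2 : p.Coprime ((Nat.card F ^ (n + 1) + 1) * ∏ i ∈ Finset.range n, (Nat.card F ^ (2 * (i + 1)) - 1)) :=
    Nat.Coprime.mul_right ((Nat.coprime_self_add_right.2 (Nat.coprime_one_right _)).coprime_dvd_left (q1 _ n.succ_pos))
      (Nat.Coprime.prod_right fun i _ => ((Nat.coprime_self_sub_right (Nat.one_le_pow _ _ Nat.card_pos)).2 (Nat.coprime_one_right _)).coprime_dvd_left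
        (q1 _ (by omega)))
  by_cases h2 : (2 : F) = 0
  · have : Nontrivial V := Module.nontrivial_of_finrank_pos (R := F) (by omega)
    rw [hS.orth_index_commutator_even h2 n4, mul_comm, Nat.mul_right_inj two_ne_zero] at c3
    exact c3 ▸ q2
  · refine (Nat.Coprime.mul_right ?_ q2).coprime_dvd_right ⟨_, c3.symm⟩
    exact (Nat.coprime_primes hp' Nat.prime_two).2 fun e => h2 (by simpa [e] using CharP.cast_eq_zero F p)

end H24
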