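import Cfsg.Agent.H24.Om2
import Cfsg.Agent.H24.TwO
import Cfsg.Agent.H12.Cent

/-! Lifting a twist to the Steinberg group (`exists_stTw`) and the Schur multiplier of a twisted group from its `p`-part (`schur_tw`). -/

set_option autoImplicit false

namespace H24
open Cfsg.Lie H12 H12.StSys H12.Tw Subgroup
open scoped commutatorElement

universe u
variable {D : ChevalleyDatum} [Good D] {K : Type u} [Field K] [Finite K] {Γ : Type*} [Group Γ] {S : StSys D K Γ} {R : RSym D}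
  {θ : Γ →* GL D.Idx K} {φ : K →+* K} {τ : TwF S R}

theorem map_lift_gen (P : Set (Φ D)) : ((stS D K).gen P).map (r3_of_finite S).lift = S.gen P :=
  ((stS D K).map_gen _ P).trans (congrArg (fun S => gen S P) (ext' (r3_of_finite S).lift_x))
theorem lift_mem_T (a : D.SteinbergGroup K) : (r3_of_finite S).lift a ∈ S.T :=
  (map_lift_gen Set.univ).le ⟨a, (stS_T (D := D) (F := K)).ge trivial, rfl⟩
theorem θ_lift (hθ : S.Cov θ) (a : D.SteinbergGroup K) : θ ((r3_of_finite S).lift a) = r3_ad.lift a :=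
  DFunLike.congr_fun ((stS D K).hom_ext stS_T (f := θ.comp (r3_of_finite S).lift) (f' := r3_ad.lift) fun r t => by
    simp [hθ r t, cov_st r t]) a

theorem exists_stTw (hθ : S.Cov θ) (hψ : ∀ r, τ.ψ r = φ) (hε : ∀ r, τ.ε r = 1) (hR : ∀ r s, pr (R.ρ r) (R.ρ s) = pr r s) :
    ∃ τ' : TwF (stS D K) R, (∀ r, τ'.ψ r = φ) ∧ ∀ a, (r3_of_finite S).lift (τ'.σ a) = τ.σ ((r3_of_finite S).lift a) := by
  let g : D.SteinbergGroup K →* Γ := MonoidHom.mk' (fun a => τ.σ ((r3_of_finite S).lift a)) fun a b => by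
    rw [map_mul, τ.mul _ (lift_mem_T a) _ (lift_mem_T b)]
  have e : ∀ r t, (r3_of_finite S).lift ((stS D K).x (R.ρ r) (φ t)) = g ((stS D K).x r t) := fun r t => by
    simp [g, τ.hxf, hψ, hε]
  have w : ∀ r i, wt (R.ρ r) (R.π i) = wt r i := fun r i => by rw [← pr_sim, ← R.sim, hR, pr_sim]
  let X : StSys D K (D.SteinbergGroup K) := ⟨fun r t => (stS D K).x (R.ρ r) (φ t), fun r t u => by rw [map_add, StSys.add], fun {r s} h1 h2 t u => by
    obtain ⟨f, f1, f2⟩ := exists_pos_pair (r := R.ρ r) (s := R.ρ s) (by rw [← R.ng]; exact R.ρ.injective.ne h2)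
    refine cov_st.injOn (closed_pos f) (fun _ h => h) (mul_mem (x_mem _ f2 _) (x_mem _ f1 _))
      (mul_mem (mul_mem (x_mem _ f1 _) (x_mem _ f2 _)) (Subgroup.list_prod_mem _ fun a ha => ?_)) ?_
    · obtain ⟨_, hb, rfl⟩ := List.mem_map.1 ha
      obtain ⟨c, hc, rfl⟩ := List.mem_map.1 hb
      obtain ⟨c1, c2, c3⟩ := cterms_spec h1 h2 hc
      exact x_mem _ (closed_pos f _ f1 _ f2 _ ⟨_, _, c1, c2, funext fun i => by
        obtain ⟨i, rfl⟩ := R.π.surjective i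
        simp only [Pi.add_apply, Pi.smul_apply, w, c3]⟩) _
    · rw [← θ_lift hθ, ← θ_lift hθ]
      simp only [map_mul, map_wprod, e]
      rw [← map_wprod, ← map_wprod, ← map_mul, ← map_mul, ← map_mul, ← map_mul, ← map_mul, ← map_mul, (stS D K).comm h1 h2]⟩
  refine ⟨mkTwF φ (r3_of_finite X).lift (fun _ _ _ _ => map_mul _ _ _) 1 (fun r t => by simp [X]) (fun _ => rfl) (fun _ => inv_one)
    fun _ => rfl, fun _ => rfl, DFunLike.congr_fun ((stS D K).hom_ext stS_T (f := (r3_of_finite S).lift.comp (r3_of_finite X).lift) (f' := g)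
      fun r t => by rw [← e]; simp [X])⟩

omit [Finite K] in
theorem r1o_inv (hθ : S.Cov θ) (h3 : S.R3) (hψ : ∀ r, τ.ψ r = φ) (hφ : ∀ t, φ (φ t) = t) (hπ : ∀ i, R.π (R.π i) = i) {i : I D} {O : List (I D)}
    (h : OrbL R O) (hi : i ∈ O) : ∃ (L : Subfield K) (A : R1 L Γ), R1O R S τ.G1 τ.T1 i A := by
  classical
  have m : ∀ j, j ∈ O ↔ j = i ∨ j = R.π i := fun j => Set.ext_iff.1 ((h.orb i hi).symm.trans (RSym.orb_eq (J := {j | j = i ∨ j = R.π i})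
    (fun j => by rw [Set.mem_setOf_eq, R.π.apply_eq_iff_eq, or_comm]; exact or_congr_right ⟨fun e => by rw [← e, hπ], fun e => by rw [e, hπ]⟩)
    (Or.inl rfl) fun j hj => hj.imp_right Or.inl)) j
  by_cases e : R.π i = i
  · exact ⟨φ.eqLocusField (RingHom.id K), _, h.r1o (f := fun _ => Subfield.subtype _) hi hθ h3 (fun t j _ => by rw [hψ]; exact t.2.symm)
      fun c hc => ⟨⟨c i, by simpa [e, hψ, eq_comm] using hc i hi⟩, fun j hj => by rcases (m j).1 hj with rfl | rfl <;> simp [e]⟩⟩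
  · refine ⟨⊤, _, h.r1o (f := fun j => if j = i then Subfield.subtype _ else φ.comp (Subfield.subtype _)) hi hθ h3 (fun t j hj => ?_)
      fun c hc => ⟨⟨c i, trivial⟩, fun j hj => ?_⟩⟩
    · rcases (m j).1 hj with rfl | rfl <;> simp [e, hψ, hπ, hφ]
    · rcases (m j).1 hj with rfl | rfl
      · simp
      · simpa [e, hψ] using hc i hi

omit [Finite K] in
theorem le_G1_of {K₁ : Subgroup Γ} (h : τ.Adm K₁) (hθ : S.Cov θ) (h3 : S.R3) (hp : commutator K₁ = ⊤) : K₁ = τ.G1 := by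
  refine h.eq_G1 hθ fun g hg => ?_
  have : g ∈ ⁅K₁, K₁⁆ := by rw [← map_subtype_commutator, hp]; exact ⟨⟨g, hg⟩, trivial, rfl⟩
  refine commutator_le.2 (fun a ha b hb => ?_) this
  obtain ⟨l, hl, c, hc, rfl⟩ := exists_G1_mul h hθ (h.le ha)
  obtain ⟨l', hl', c', hc', rfl⟩ := exists_G1_mul h hθ (h.le hb)
  rw [show ⁅l * c, l' * c'⁆ = l * (c * l' * c⁻¹) * (c * c' * c⁻¹ * l⁻¹ * c'⁻¹) * l'⁻¹ by group, h3.comm hc.1 hc'.1, mul_inv_cancel_right]
  exact mul_mem (mul_mem (mul_mem hl (H24.conj_mem_G1 hc hl')) (H24.conj_mem_G1 hc' (inv_mem hl))) (inv_mem hl')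

theorem schur_tw (hθ : S.Cov θ) (hψ : ∀ r, τ.ψ r = φ) (hε : ∀ r, τ.ε r = 1) (hR : ∀ r s, pr (R.ρ r) (R.ρ s) = pr r s) (hφ : ∀ t, φ (φ t) = t)
    (hπ : ∀ i, R.π (R.π i) = i) (orb : ∀ i, ∃ O, OrbL R O ∧ i ∈ O) (hi : Function.Injective (r3_st (D := D) (F := K)).hprod)
    (p : ℕ) [hp : Fact p.Prime] [CharP K p] {K₁ : Subgroup Γ} [Finite K₁] (ga : GAd τ.toTw K₁ p) (pf : commutator K₁ = ⊤)
    (hE : ∀ (E : Type u) [Group E] [Finite E] (ρ : E →* K₁), Cfsg.IsStemExtension ρ → CX ρ p) :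
    Cfsg.HasSchurMultiplier (K₁ ⧸ center K₁) ↥((actM (M := Kˣ) (CA D)).ker ⊓ τ.T1) := by
  obtain ⟨τ', hψ', hσ⟩ := exists_stTw hθ hψ hε hR
  obtain rfl := le_G1_of ga.adm hθ (r3_of_finite S) pf
  have : Finite (D.SteinbergGroup K) := finite_of_cov cov_st stS_T
  have T1 : τ.T1 = τ'.T1 := Subgroup.ext fun c => forall_congr' fun i => by rw [hψ, hψ']
  have adm : τ'.Adm τ'.G1 := (TwF.adm_of_orb cov_st G1_le_fix fun i => Or.inl <|
    let ⟨O, hO, hi⟩ := orb i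
    ⟨O, hO, hi, fun _ hc => ⟨mem_sup_left ⟨TwF.xU_mem _, TwF.xU_fix hO.orth hO.inv hc⟩,
      mem_sup_right ⟨gen_mono _ (fun _ h => h.1) (TwF.xV_mem _), TwF.xV_fix hO.orth hO.inv hc⟩⟩⟩).1
  have m1 : τ'.G1.map (r3_of_finite S).lift = τ.G1 := by
    have k : ∀ {P : Set (Φ D)} {f : Λ D →ₗ[ℤ] ℤ}, Closed P → (∀ r ∈ P, 0 < f (wt r)) → (∀ a ∈ (stS D K).gen P, τ'.σ a ∈ (stS D K).gen P) →
        ((stS D K).gen P ⊓ τ'.Fix).map (r3_of_finite S).lift = S.gen P ⊓ τ.Fix := fun hP hf h => le_antisymm (by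
      rintro _ ⟨a, ha, rfl⟩
      exact ⟨(map_lift_gen _).le ⟨a, ha.1, rfl⟩, lift_mem_T a, by rw [← hσ, ha.2.2]⟩) fun u hu => by
        obtain ⟨a, ha, rfl⟩ := (map_lift_gen _).ge hu.1
        exact ⟨a, ⟨ha, gen_le_T _ _ ha, cov_st.injOn hP hf (h a ha) ha (by rw [← θ_lift hθ, ← θ_lift hθ, hσ, hu.2.2])⟩, rfl⟩
    exact (Subgroup.map_sup _ _ _).trans (congrArg₂ (· ⊔ ·) (k closed_isPos pos_fl fun _ => τ'.map_U) (k closed_not_isPos neg_fl fun _ => τ'.map_V))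
  let σ : τ'.G1 →* τ.G1 := ((r3_of_finite S).lift.comp τ'.G1.subtype).codRestrict _ fun a => m1.le ⟨a, a.2, rfl⟩
  have sj : Function.Surjective σ := fun g => let ⟨a, ha, e⟩ := m1.ge g.2; ⟨⟨a, ha⟩, Subtype.ext e⟩
  have k1 : ∀ z, σ z ∈ center τ.G1 ↔ ∃ c ∈ (actM (CA D)).ker, z.1 = (stS D K).hl c := fun z =>
    (ga.mem_center hθ).trans (((θ_lift hθ z.1).congr_left).trans (cov_st.mem_ker_iff r3_st (G1_le_fix z.2).1))
  have k2 : ∀ z, σ z ∈ center τ.G1 → z ∈ center τ'.G1 := fun z hz => mem_center_iff.2 fun g => Subtype.ext (mem_center_iff.1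
    ((cov_st.ker_eq_center stS_T).le ((θ_lift hθ z.1).symm.trans ((ga.mem_center hθ).1 hz))) g)
  have pe : ∀ u : τ'.G1, PE p u.1 → u ∈ commutator τ'.G1 := by
    rintro u ⟨j, hj⟩
    obtain ⟨a, ha, e1⟩ := (H21.map_commutator_of_surjective σ sj).ge (pf.ge (mem_top (σ u)))
    obtain ⟨c, -, h2⟩ := (k1 (a⁻¹ * u)).1 (by simp [e1, one_mem])
    have e2 : (a⁻¹ * u) ^ (Nat.card K - 1) = 1 := Subtype.ext (by
      rw [coe_pow, h2, ← r3_st.hprod_apply, ← map_pow, show c ^ _ = 1 from funext fun i => by rw [← Nat.card_units]; exact pow_card_eq_one', map_one]; rfl)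
    rw [SetLike.mem_coe] at ha
    rw [← Abelianization.ker_of, MonoidHom.mem_ker] at ha ⊢
    refine orderOf_eq_one_iff.1 (Nat.eq_one_of_dvd_coprimes (((Nat.Prime.coprime_iff_not_dvd hp.out).2 (not_dvd_card_units (F := K) p)).pow_left j)
      (orderOf_dvd_of_pow_eq_one ?_) (orderOf_dvd_of_pow_eq_one ?_))
    · rw [← map_pow, show u ^ _ = 1 from Subtype.ext hj, map_one]
    · simpa [ha] using congrArg Abelianization.of e2
  have pf' : commutator τ'.G1 = ⊤ := eq_top_iff.2 fun z _ => by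
    obtain ⟨a, ha, e1⟩ := (sup_le (fun u hu => ⟨⟨u, mem_sup_left hu⟩, pe _ (pe_of_mem (cov_st.isPGroup_U p) hu.1), rfl⟩) fun u hu =>
      ⟨⟨u, mem_sup_right hu⟩, pe _ (pe_of_mem (cov_st.isPGroup_gen p closed_not_isPos neg_fl) hu.1), rfl⟩ :
        τ'.G1 ≤ (commutator _).map τ'.G1.subtype) z.2
    exact Subtype.ext e1 ▸ ha
  have hT : ∀ c ∈ τ'.T1, (stS D K).hl c = 1 → c = 1 := fun c _ e => hi (e.trans (map_one _).symm)
  have triv : Cfsg.HasCyclicSchurMultiplier τ'.G1 1 := H21.schur_trivial_of_forall_stem fun E _ _ s hs => eq_bot_iff.2 fun z hz => by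
    have pE := H21.perfect_of_stem ⟨pf'⟩ s hs
    obtain ⟨m, h1, h2⟩ := (hE E (σ.comp s) ⟨sj.comp hs.1, fun z hz => H21.mem_center_of_map_mem_center pE s hs.2.1
      (k2 _ ((show σ (s z) = 1 from hz) ▸ one_mem _)), pE.1.ge.trans' le_top⟩).cop
    have e : (τ'.G1.subtype.comp s).range = τ'.G1 := by
      rw [MonoidHom.range_comp, MonoidHom.range_eq_top.2 hs.1, ← MonoidHom.range_eq_map, range_subtype]
    have hx : CX (τ'.G1.subtype.comp s) p := ⟨fun z hz => hs.2.1 (Subtype.ext hz), m, h1, fun z hz => h2 z (by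
      rw [MonoidHom.comp_apply, show s z = 1 from Subtype.ext hz, map_one])⟩
    have h3 := fun i => let ⟨_, a, b⟩ := orb i; r1o_inv cov_st r3_st hψ' hφ hπ a b
    exact hx.ker_inf (e.symm ▸ adm) cov_st e.le (fun _ => HH_inf r3_st hT
      (fun i z hz e1 => let ⟨_, _, h⟩ := h3 i; ((e ▸ h :).lo hx cov_st hT hz (e1 ▸ one_mem _)).2 e1)
      fun i z hz => let ⟨_, _, h⟩ := h3 i; ((e ▸ h :).lo hx cov_st hT hz.1 hz.2).1) (congrArg Subtype.val hz) (hs.2.2 hz)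
  have k3 : ∀ z, z ∈ ((QuotientGroup.mk' (center τ.G1)).comp σ).ker ↔ σ z ∈ center τ.G1 := fun z => QuotientGroup.eq_one_iff _
  refine H21.schur_of_stem_of_trivial ((QuotientGroup.mk' (center τ.G1)).comp σ)
    ⟨(QuotientGroup.mk'_surjective _).comp sj, fun z hz => k2 z ((k3 z).1 hz), pf'.ge.trans' le_top⟩ triv (MulEquiv.ofBijective
      (((r3_st.hprod.comp (Subgroup.subtype ((actM (M := Kˣ) (CA D)).ker ⊓ τ.T1))).codRestrict τ'.G1 fun c => TwF.T1_le r3_st orb ⟨c, T1.le c.2.2, rfl⟩).codRestrict _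
        fun c => (k3 _).2 ((k1 _).2 ⟨c, c.2.1, rfl⟩)) ⟨fun a b h => Subtype.ext (hi (congrArg (·.1.1) h)), fun z => ?_⟩).symm
  obtain ⟨c, h1, h2⟩ := (k1 _).1 ((k3 _).1 z.2)
  exact ⟨⟨c, h1, T1.ge <| TwF.mem_T1 (τ := τ') r3_st hi (h2 ▸ G1_le_fix z.1.2)⟩, Subtype.ext (Subtype.ext h2.symm)⟩

end H24
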