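import Cfsg.Agent.H24.Om3
import Cfsg.Agent.H24.Spin

/-! The Schur multiplier of `PΩ⁻` (`schur_minus`). -/

set_option autoImplicit false

namespace H24
open Cfsg Cfsg.Lie H12 H12.StSys H12.Tw H11 H11.PForm Subgroup

theorem ker_tD {m : ℕ} (h : 3 ≤ m + 1) {A : Type*} [CommGroup A] {q : ℕ} {T : Subgroup (Fin (m + 1) → A)}
    (hT : ∀ c, c ∈ T ↔ ∀ i, c (Equiv.swap ⟨m - 1, by omega⟩ (Fin.last m) i) = c i ^ q) (hq : ∀ u : A, (u ^ q) ^ q = u) :
    Nonempty (↥((actM (M := A) (CA (msD _ h).D)).ker ⊓ T) ≃* μT A (Nat.gcd 4 (q ^ (m + 1) + 1))) := by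
  have h2 : ∀ y : A, y ^ 2 = 1 → y ^ q = y := fun y e => by
    obtain ⟨k, rfl | rfl⟩ := q.even_or_odd'
    · rw [← hq y]; simp [pow_mul, e]
    · simp [pow_succ _ (2 * k), pow_mul, e]
  have h3 : ∀ u y : A, y ^ 2 = 1 → u ^ q = u * y → u ^ (q ^ (m + 1) + 1) = u ^ 2 * y ^ (m + 1) := fun u y e e' => by
    have : ∀ n, u ^ q ^ n = u * y ^ n := fun n => by
      induction n with
      | zero => simp
      | succ n ih => rw [pow_succ, pow_mul, ih, mul_pow, e', ← pow_mul, mul_comm n, pow_mul, h2 y e, pow_succ', mul_assoc]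
    rw [pow_succ, this, sq, mul_right_comm]
  have h4 : ∀ y : A, y ^ 2 = 1 → (y ^ (m + 1)) ^ 2 = 1 := fun y e => by rw [← pow_mul, mul_comm, pow_mul, e, one_pow]
  have c1 : ∀ c : Fin (m + 1) → A, cc c (m + 1 - 2) = c ⟨m - 1, by omega⟩ := fun c => dif_pos (by omega)
  have c2 : ∀ c : Fin (m + 1) → A, cc c (m + 1 - 1) = c (Fin.last m) := fun c => dif_pos (by omega)
  have c3 : ∀ c ∈ T, cc c (m + 1 - 1) = cc c (m + 1 - 2) ^ q := fun c hc => by rw [c1, c2, ← (hT c).1 hc, Equiv.swap_apply_left]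
  refine ⟨.ofBijective (ccK _ (m + 1 - 2) _ fun c => ?_) ⟨(injective_iff_map_eq_one _).2 fun c e => Subtype.ext (eq_one_D h c.2.1
    (congrArg Subtype.val e) (Or.inr (by rw [c3 _ c.2.2, show cc c.1 _ = 1 from congrArg Subtype.val e, one_pow]))), fun u => ?_⟩⟩
  · obtain ⟨y, e0, -, e2, e3⟩ := (mem_ker_D h).1 c.2.1
    refine pow_gcd_eq_one.2 ⟨by rw [show 4 = 2 * 2 from rfl, pow_mul, e2, h4 y e0], ?_⟩
    rw [h3 _ y e0 ((c3 _ c.2.2).symm.trans e3), e2, ← sq, h4 y e0]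
  · obtain ⟨u1, u2⟩ := pow_gcd_eq_one.1 (show (u : A) ^ _ = 1 from u.2)
    have e0 : ((u : A)⁻¹ * u ^ q) ^ 2 = 1 := by
      rw [mul_pow, ← pow_mul, mul_comm q, pow_mul, h2 _ (by rw [← pow_mul, u1]), inv_pow, inv_mul_cancel]
    obtain ⟨c, hc, e1, e2⟩ := exists_ker_D h e0 (u := (u : A)) (by
      rw [h3 _ _ e0 (mul_inv_cancel_left _ _).symm] at u2
      rw [eq_inv_of_mul_eq_one_left u2, inv_eq_iff_mul_eq_one, ← sq, h4 _ e0])
    refine ⟨⟨c, hc, (hT c).2 fun i => ?_⟩, Subtype.ext e1⟩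
    rw [mul_inv_cancel_left, c2] at e2
    rw [c1] at e1
    obtain ⟨y, y0, y1, -⟩ := (mem_ker_D h).1 hc
    rw [Equiv.swap_apply_def]
    split_ifs with a b
    · rw [a, e1, e2]
    · rw [b, e1, e2, hq]
    · have := y1 i (by have := i.2; simp only [Fin.ext_iff, Fin.val_last] at a b; omega)
      rw [cc, dif_pos i.2] at this
      rw [this, ← pow_mul, mul_comm, pow_mul, h2 y y0]

theorem card_quad {F K : Type*} [Field F] [Field K] {φ : K →+* K} {f : F →+* K} {w : K} (h1 : ∀ t, φ (φ t) = t) (e3 : φ w ≠ w)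
    (e4 : ∀ t, φ t = t ↔ ∃ s, f s = t) : Nat.card K = Nat.card F ^ 2 := by
  have e := sub_ne_zero.2 e3
  have k : ∀ s, φ (f s) = f s := fun s => (e4 _).2 ⟨s, rfl⟩
  rw [sq, ← Nat.card_prod]
  refine (Nat.card_eq_of_bijective (fun s : F × F => f s.1 + w * f s.2) ⟨fun s t a => ?_, fun t => ?_⟩).symm
  · have b := congrArg φ a
    simp only [map_add, map_mul, k] at a b
    have c : f s.2 = f t.2 := mul_left_cancel₀ e (by linear_combination b - a)
    exact Prod.ext (f.injective (by linear_combination a - w * c)) (f.injective c)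
  · obtain ⟨s', a⟩ := (e4 ((φ t - t) / (φ w - w))).1 (by rw [map_div₀, map_sub, map_sub, h1, h1, ← neg_div_neg_eq, neg_sub, neg_sub])
    obtain ⟨s, b⟩ := (e4 (t - w * f s')).1 (by rw [map_sub, map_mul, k, a]; field_simp; ring)
    exact ⟨(s, s'), by simp [b]⟩

theorem schur_minus {F : Type*} [Field F] [Finite F] {m : ℕ} (h : 3 ≤ m) {a b : F} (hab : Aniso a b) :
    HasCyclicSchurMultiplier (POmega F (quadFormMinus m F a b)) (Nat.gcd 4 (Nat.card F ^ (m + 1) + 1)) := by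
  obtain ⟨p, _, hp⟩ : ∃ p, ∃ _ : CharP F p, Fact p.Prime := let ⟨p, h⟩ := CharP.exists F; ⟨p, h, ⟨CharP.char_is_prime F p⟩⟩
  obtain ⟨K, _, _, _, φ, f, w, h1, e1, e2, e3, e4⟩ := exists_quadExt hab p
  obtain ⟨θ, hθ⟩ := exists_cov_D (K := K) (m := m) (by omega) (by omega)
  obtain ⟨K₁, h2, ⟨e⟩⟩ := exists_ga_desc _ _ h1 e1 e2 e3 e4 hab p hθ
  have nd := sMinus_nondeg m hab
  have d := finrank_minus_fun (F := F) m
  have : Finite (sMinus m F a b).Isom := finite_isom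
  have : Finite K₁ := Finite.of_equiv _ e.toEquiv
  have hK := card_quad h1 e3 e4
  have hφ := unit_σ_eq h1 (fun e => e3 (by rw [e]; rfl)) hK
  obtain ⟨i1⟩ := ker_tD (m := m) (by omega) (A := Kˣ) (q := Nat.card F) (T := (twD (by omega) (by omega) φ h1).T1)
    (fun c => forall_congr' fun i => by rw [Units.ext_iff, Units.ext_iff, Units.val_pow_eq_pow_val, ← hφ]; rfl)
    fun u => Units.ext (by rw [Units.val_pow_eq_pow_val, Units.val_pow_eq_pow_val, ← hφ, ← hφ, h1])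
  obtain ⟨i2⟩ := μT_equiv K (Nat.gcd 4 (Nat.card F ^ (m + 1) + 1)) (Nat.gcd_eq_left (by
    rw [hK]
    obtain ⟨k, e | e⟩ := (Nat.card F).even_or_odd' <;> rw [e]
    · rw [show Nat.gcd 4 _ = 1 from Nat.Coprime.pow_left 2 (m := 2) (by simp [mul_pow, pow_succ, mul_assoc, parity_simps])]; exact one_dvd _
    · exact (Nat.gcd_dvd_left _ _).trans ⟨k ^ 2 + k, by rw [Nat.sub_eq_iff_eq_add (Nat.one_le_pow _ _ (by omega))]; ring⟩))
  refine H21.schur_congr_left (H21.schur_congr_right (schur_tw hθ (fun _ => rfl) (fun _ => rfl) (fun r s => ?_) h1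
    (fun i => Equiv.swap_apply_self _ _ i) (orb_RD _) (hprod_inj_D _ K) p h2 (commutator_eq_top_of_equiv e.symm (nd.orth_omega_perfect (by omega)))
    fun E _ _ ρ hρ => ?_) (i1.trans i2)) ((centerQuotCongr e).symm.trans (pomegaEquiv (qMinus m F a b)).symm)
  · rw [pr_eq_dt rfl (msD_nrm _), pr_eq_dt rfl (msD_nrm _), dt, dt, RD, MS.ρ_rsym, MS.ρ_rsym]
    exact Finset.sum_congr rfl fun j _ => by rw [LD, AddMonoidHom.mk'_apply, neg_mul_neg, mul_mul_mul_comm, δD_sq, one_mul]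
  · have k : ∀ z, (((commutator _).subtype.comp e.symm.toMonoidHom).comp ρ) z = 1 ↔ ρ z = 1 := fun z => by simp
    obtain ⟨-, n, c1, c2⟩ := om_p nd (π := ((commutator _).subtype.comp e.symm.toMonoidHom).comp ρ) (fun z hz => hρ.2.1 ((k z).1 hz)) (by
      rw [MonoidHom.range_comp, MonoidHom.range_eq_top.2 hρ.1, ← MonoidHom.range_eq_map, MonoidHom.range_comp,
        MonoidHom.range_eq_top.2 e.symm.surjective, ← MonoidHom.range_eq_map, range_subtype,
        nd.orth_commutator_eq_E (Or.inr (Or.inl (by omega))) (by omega)]) d (by omega) (sMinus_not_hasTS m hab) (fun z hz => hρ.2.2 ((k z).1 hz)) p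
    exact ⟨hρ.2.1, n, c1, fun z hz => c2 z ((k z).2 hz)⟩

end H24
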