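import Cfsg.Agent.H12.Tits
import Cfsg.Agent.H12.StBlk
import Cfsg.Agent.H5.FS
import Cfsg.Agent.H24.LieAll

/-! The Steinberg character of a finite group with a cell system or BN-pair (`exists_st`, `bn_st`), the property `HS p G`
(an irreducible character of degree `|G|_p`), and `HS` for all admissible groups (`hs_K`) and rank one groups (`RK.hs`). -/

set_option autoImplicit false

namespace H24
open Cfsg H5 H7 H12 H13 Finset MonoidAlgebra
open scoped Classical

variable {G G' ι W : Type*} [Group G] [Group G'] [Group W]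

/-- the left ideal generated by `ε` -/
noncomputable def lrep (ε : ℂ[G]) : Representation ℂ G (LinearMap.range (LinearMap.mulRight ℂ ε)) where
  toFun g := (LinearMap.mulLeft ℂ (single g (1 : ℂ))).restrict (by rintro _ ⟨a, rfl⟩; exact ⟨_, mul_assoc _ a ε⟩)
  map_one' := LinearMap.ext fun v => Subtype.ext (one_mul v.1)
  map_mul' g h := LinearMap.ext fun v => Subtype.ext (by simp [← mul_assoc, single_mul_single])

theorem exists_irr_of_idem [Finite G] {ε : ℂ[G]} (h1 : ε * ε = ε) (h0 : ε ≠ 0) (h2 : ∀ g, ∃ c : ℂ, ε * single g 1 * ε = c • ε) :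
    ∃ χ, IsIrrCharacter G χ ∧ χ 1 = Nat.card G * ε.coeff 1 ∧
      ∀ N : Subgroup G, N.Normal → (∀ n ∈ N, single n 1 * ε = ε) → N ≤ charKer χ := by
  have := Fintype.ofFinite G
  have key : ∀ U : Submodule ℂ _, (∀ g, ∀ v ∈ U, lrep ε g v ∈ U) → ∀ x : ℂ[G], ∀ v ∈ U, ∀ w, w.1 = x * v.1 → w ∈ U := fun U h x v hv w e => by
    rw [show w = ∑ g, x.coeff g • lrep ε g v from Subtype.ext (by
      rw [e, Submodule.coe_sum]; conv_lhs => rw [eq_sum_single x, sum_mul]
      exact sum_congr rfl fun g _ => smul_mul_assoc _ _ _)]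
    exact U.sum_mem fun g _ => U.smul_mem _ (h g v hv)
  have h3 : ∀ x, ∃ c : ℂ, ε * x * ε = c • ε := fun x => by
    choose c hc using h2
    exact ⟨∑ g, x.coeff g * c g, by
      conv_lhs => rw [eq_sum_single x]
      simp only [mul_sum, sum_mul, hc, sum_smul, mul_smul, mul_smul_comm, smul_mul_assoc]⟩
  let e : LinearMap.range (LinearMap.mulRight ℂ ε) := ⟨ε, ε, h1⟩
  have top : ∀ U : Submodule ℂ _, (∀ g, ∀ v ∈ U, lrep ε g v ∈ U) → e ∈ U → U = ⊤ := fun U h he =>
    eq_top_iff.2 fun v _ => v.2.elim fun x hx => key U h x e he v hx.symm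
  have : (lrep ε).IsIrreducible := (isIrreducible_iff _).2 ⟨⟨e, 0, fun h => h0 (congrArg Subtype.val h)⟩, fun U hU => by
    obtain ⟨U', hc⟩ := exists_compl (ρ := lrep ε) ⟨U, fun g v h => hU g v h⟩
    obtain ⟨a, ha, b, hb, hab⟩ := Submodule.mem_sup.1 (hc.sup_eq_top ▸ Submodule.mem_top (x := e))
    obtain ⟨c, h4⟩ := h3 a.1
    have h5 : a.1 * ε = a.1 := by obtain ⟨x, hx⟩ := a.2; rw [← hx]; simp [mul_assoc, h1]
    rw [mul_assoc, h5] at h4
    by_cases hc0 : c = 0
    · have h6 := top _ (fun g v h => U'.apply_mem_toSubmodule g h) (key _ (fun g v h => U'.apply_mem_toSubmodule g h) ε b hb e (by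
        have := congrArg (fun v => ε * v.1) hab
        simpa [mul_add, h4, hc0, e, h1] using this.symm))
      exact .inl (by simpa [h6] using hc.inf_eq_bot)
    · exact .inr (top U hU ((U.smul_mem_iff hc0).1 (key U hU ε a ha _ h4.symm)))⟩
  refine ⟨_, isIrrCharacter_character (lrep ε), ?_, fun N hN h n hn => ?_⟩
  · have h4 : IsIdempotentElem (LinearMap.mulRight ℂ ε) := LinearMap.ext fun x => by simp [mul_assoc, h1]
    rw [Representation.char_one, ← (LinearMap.IsIdempotentElem.isProj_range _ h4).trace, LinearMap.trace_eq_matrix_trace ℂ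
      (MonoidAlgebra.basis G ℂ), Matrix.trace, Nat.card_eq_fintype_card, ← nsmul_eq_mul, ← card_univ, ← sum_const]
    refine sum_congr rfl fun g _ => ?_
    rw [Matrix.diag_apply, LinearMap.toMatrix_apply, MonoidAlgebra.basis_apply]
    exact (coeff_single_one_mul' g ε g).trans (by simp)
  · refine (mem_charKer_character _ _).2 (LinearMap.ext fun v => Subtype.ext ?_)
    obtain ⟨_, x, rfl⟩ := v
    change single n 1 * (x * ε) = x * ε
    rw [eq_sum_single x]
    simp only [sum_mul, mul_sum, smul_mul_assoc, mul_smul_comm]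
    refine sum_congr rfl fun g _ => congrArg _ ?_
    conv_rhs => rw [← h _ (hN.conj_mem' n hn g)]
    simp [← mul_assoc, single_mul_single]

theorem exists_w0 [Finite W] {S : InvGen ι W} (hE : S.Exchange) : ∃ w0, ∀ w, S.len (w * (w⁻¹ * w0)) = S.len w + S.len (w⁻¹ * w0) := by
  obtain ⟨w0, h0⟩ := Finite.exists_max S.len
  have key : ∀ l, S.Reduced l → ∃ v, S.wp (l ++ v) = w0 ∧ (l ++ v).length = S.len w0 := fun l => by
    induction l with
    | nil => exact fun _ => (S.exists_reduced w0).imp fun v h => ⟨h.2, h.1⟩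
    | cons i l ih =>
      intro h
      obtain ⟨v, h1, h2⟩ := ih (InvGen.Reduced.of_cons _ h)
      obtain ⟨a, j, b, h3, h4⟩ := hE i (l ++ v) (by rw [h1]; exact h0 _)
      have k : ∀ c, a = l ++ c → ∃ v, S.wp (i :: l ++ v) = w0 ∧ (i :: l ++ v).length = S.len w0 := fun c e =>
        ⟨c ++ b, by rw [List.cons_append, S.wp_cons, ← List.append_assoc, ← e, ← h4, h1]; simp, by
          rw [← h2, h3, e]; simp; omega⟩
      rcases List.append_eq_append_iff.1 h3 with ⟨c, e, -⟩ | ⟨_ | ⟨k', c⟩, e, e'⟩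
      · exact k c e
      · exact k [] (by simpa using e.symm)
      · obtain ⟨rfl, rfl⟩ := List.cons.inj e'
        have h5 : S.wp (i :: l) = S.wp (a ++ c) := by simpa [← mul_assoc] using h4
        have := S.len_wp_le (a ++ c)
        rw [← h5, h, e] at this
        simp at this
  refine ⟨w0, fun w => (S.len_mul_le _ _).antisymm ?_⟩
  obtain ⟨l, h1, rfl⟩ := S.exists_reduced w
  obtain ⟨v, h2, h3⟩ := key l h1.symm
  have := S.len_wp_le v
  rw [mul_inv_cancel_left, ← h3, ← h1, ← h2]; simpa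

section
variable {S : InvGen ι W} [Fintype G] (X : CellSys G S)
theorem q_mul {v w : W} (h : S.len (v * w) = S.len v + S.len w) : X.q (v * w) = X.q v * X.q w := by
  obtain ⟨l, h1, rfl⟩ := S.exists_reduced v
  rw [← h1] at h
  induction l with
  | nil => simp
  | cons i l ih =>
    have h2 : S.len (S.wp l) = l.length := InvGen.Reduced.of_cons _ h1.symm
    have h3 := S.len_mul_le (S.wp l) w
    have h4 := S.len_σ_mul_le i (S.wp l * w)
    simp only [S.wp_cons, mul_assoc, List.length_cons] at h h1 ⊢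
    rw [X.q_s_mul (by omega), X.q_s_mul (by omega), ih (by omega) h2.symm, mul_assoc]
theorem le_q {w : W} {n : G} (hn : X.C w n) {U : Subgroup G} (hU : U ≤ X.B) (h : ∀ u ∈ U, n⁻¹ * u * n ∈ X.B → u = 1) :
    Nat.card U ≤ X.q w := by
  rw [CellSys.q, le_div_iff₀ (Nat.cast_pos.2 Nat.card_pos), ← Fintype.card_subtype, ← Nat.card_eq_fintype_card, ← Nat.cast_mul,
    Nat.cast_le, ← Nat.card_prod]
  refine Nat.card_le_card_of_injective (fun a => ⟨a.1 * n * a.2, X.mul_right (X.mul_left hn (hU a.1.2)) a.2.2⟩) fun a b e => ?_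
  have e : (a.1 : G) * n * a.2 = b.1 * n * b.2 := congrArg Subtype.val e
  have e' := inv_mul_eq_one.1 (h _ (mul_mem (inv_mem b.1.2) a.1.2) (by
    rw [show n⁻¹ * ((b.1 : G)⁻¹ * a.1) * n = b.2 * (a.2 : G)⁻¹ from
      calc _ = n⁻¹ * (b.1 : G)⁻¹ * (a.1 * n * a.2) * (a.2 : G)⁻¹ := by group
        _ = _ := by rw [e]; group]
    exact mul_mem b.2.2 (inv_mem a.2.2)))
  exact Prod.ext (Subtype.ext e'.symm) (Subtype.ext (by simpa [e'] using e))
theorem q_le {w : W} {n : G} (hn : X.C w n) {U : Subgroup G} (h : ∀ b ∈ X.B, ∃ u ∈ U, n⁻¹ * (u⁻¹ * b) * n ∈ X.B) :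
    X.q w ≤ Nat.card U := by
  rw [CellSys.q, div_le_iff₀ (Nat.cast_pos.2 Nat.card_pos), ← Fintype.card_subtype, ← Nat.card_eq_fintype_card, ← Nat.cast_mul,
    Nat.cast_le, ← Nat.card_prod]
  have : ∀ g : {g // X.C w g}, ∃ a : U × X.B, g.1 = a.1 * n * a.2 := fun g => by
    obtain ⟨b, hb, b', hb', e⟩ := X.trans hn g.2
    obtain ⟨u, hu, k⟩ := h b hb
    exact ⟨(⟨u, hu⟩, ⟨_, mul_mem k hb'⟩), by rw [e]; simp [mul_assoc]⟩
  choose f hf using this
  exact Nat.card_le_card_of_injective f fun a b e => Subtype.ext (by rw [hf, hf, e])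

theorem exists_st [Finite W] : ∃ w χ, IsIrrCharacter G χ ∧ χ 1 = X.q w ∧ (∀ v, X.q v ≤ X.q w) ∧
    ∀ N : Subgroup G, N.Normal → N ≤ X.B → N ≤ charKer χ := by
  have := Fintype.ofFinite W
  have hq : ∀ w, (X.q w : ℂ) ≠ 0 := fun w => by simpa using (X.q_pos w).ne'
  obtain ⟨f, hf⟩ : ∃ f, f = ∑ w, ((-1) ^ S.len w * (X.q w : ℂ)⁻¹) • X.T w := ⟨_, rfl⟩
  have h1 : ∀ i, X.T (S.σ i) * f = -f := fun i => by
    have k : ∀ w, S.len w ≤ S.len (S.σ i * w) → ((-1) ^ S.len w * (X.q w : ℂ)⁻¹) • (X.T (S.σ i) * X.T w + X.T w) +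
        ((-1) ^ S.len (S.σ i * w) * (X.q (S.σ i * w) : ℂ)⁻¹) • (X.T (S.σ i) * X.T (S.σ i * w) + X.T (S.σ i * w)) = 0 := fun w h => by
      have e := (X.exch.len_σ_mul i w).resolve_right (by omega)
      rw [X.T_s_mul h, X.T_s_mul' (by rw [S.σ_mul_σ_mul]; omega), S.σ_mul_σ_mul, e, X.q_s_mul h]
      have := hq w; have := hq (S.σ i)
      push_cast; match_scalars <;> field_simp <;> ring
    rw [eq_neg_iff_add_eq_zero, hf, mul_sum, ← sum_add_distrib]
    simp only [mul_smul_comm, ← smul_add]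
    refine sum_involution (fun w _ => S.σ i * w) (fun w _ => ?_) (fun w _ _ e => X.σ_ne i (mul_eq_right.1 e)) (by simp) (by simp)
    by_cases h : S.len w ≤ S.len (S.σ i * w)
    · exact k w h
    · have := k (S.σ i * w) (by rw [S.σ_mul_σ_mul]; omega)
      rwa [S.σ_mul_σ_mul, add_comm] at this
  have h0 : X.T 1 * f = f := by simp [hf, mul_sum]
  have h0' : f * X.T 1 = f := by simp [hf, sum_mul]
  have h2 : ∀ w, X.T w * f = (-1 : ℂ) ^ S.len w • f := fun w => by
    obtain ⟨l, h, rfl⟩ := S.exists_reduced w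
    rw [← h]
    induction l with
    | nil => simpa
    | cons i l ih =>
      have h2 : S.len (S.wp l) = l.length := InvGen.Reduced.of_cons _ h.symm
      rw [S.wp_cons] at h ⊢
      rw [← X.T_s_mul (by rw [← h, h2]; simp), mul_assoc, ih h2.symm, mul_smul_comm, h1]; simp [pow_succ]
  obtain ⟨c, hc⟩ : ∃ c : ℝ, c = ∑ w, (X.q w)⁻¹ := ⟨_, rfl⟩
  have c0 : (c : ℂ) ≠ 0 := by simpa using (hc ▸ sum_pos (fun w _ => inv_pos.2 (X.q_pos w)) univ_nonempty).ne'
  have h3 : f * f = (c : ℂ) • f := by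
    conv_lhs => rw [hf, sum_mul, ← hf]
    simp only [smul_mul_assoc, h2, smul_smul, ← sum_smul, hc]
    push_cast
    exact congrArg (· • f) (sum_congr rfl fun w _ => by rw [mul_right_comm, ← mul_pow]; simp)
  have h4 : f.coeff 1 = (Nat.card X.B : ℂ)⁻¹ := by
    rw [hf, coeff_sum', sum_eq_single 1 (fun w _ e => ?_) (by simp), coeff_smul', X.coeff_T, if_pos (X.one.2 (one_mem _))]
    · simp
    · rw [coeff_smul', X.coeff_T, if_neg fun a => e (X.uniq a (X.one.2 (one_mem _))), mul_zero]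
  obtain ⟨χ, a1, a2, a3⟩ := exists_irr_of_idem (ε := (c : ℂ)⁻¹ • f) (by rw [smul_mul_smul_comm, h3, smul_smul]; congr 1; field_simp)
    (fun e => by simpa [h4, c0, X.cB, coeff_smul', coeff_zero'] using congrArg (·.coeff 1) e) fun g => by
      obtain ⟨w, hw⟩ := X.ex g
      have : f * single g 1 * f = f * (X.T 1 * single g 1 * X.T 1) * f := by simp only [← mul_assoc, h0']; rw [mul_assoc _ (X.T 1), h0]
      refine ⟨(X.q w : ℂ)⁻¹ * (-1) ^ S.len w, ?_⟩
      simp only [smul_mul_assoc, mul_smul_comm, this, X.ege hw, mul_assoc f, h2, h3, smul_smul]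
      congr 1; field_simp
  obtain ⟨w, hw⟩ := exists_w0 X.exch
  have h5 : ∀ v, X.q w = X.q v * X.q (v⁻¹ * w) := fun v => by simpa using q_mul X (hw v)
  refine ⟨w, χ, a1, ?_, fun v => ?_, fun N h hN => a3 N h fun n hn => ?_⟩
  · have e1 : (Nat.card G : ℂ) = (∑ v, X.q v : ℝ) * Nat.card X.B := by
      push_cast
      simp only [sum_mul, ← X.card_C]
      rw [Nat.card_eq_fintype_card, ← card_univ, card_eq_sum_card_fiberwise (f := fun g => (X.ex g).choose) (t := univ) (by simp)]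
      push_cast
      exact sum_congr rfl fun v _ => congrArg _ (congrArg _ (filter_congr fun g _ =>
        ⟨fun e => e ▸ (X.ex g).choose_spec, X.uniq (X.ex g).choose_spec⟩))
    have e2 : ∑ v, X.q v = X.q w * c := by
      rw [hc, mul_sum, ← ((Equiv.inv W).trans (Equiv.mulRight w)).sum_comp]
      exact sum_congr rfl fun v _ => by rw [h5 v, mul_right_comm, mul_inv_cancel₀ (X.q_pos v).ne']; simp
    have := X.cB
    rw [a2, e1, e2, coeff_smul', h4]; push_cast; field_simp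
  · obtain ⟨n, hn⟩ := X.ne (v⁻¹ * w)
    have := le_q X hn bot_le fun u h _ => h
    rw [h5 v]; exact le_mul_of_one_le_right (X.q_pos v).le (by simpa using this)
  · rw [mul_smul_comm, ← h0, ← mul_assoc]
    congr 2
    exact ga_ext fun y => by rw [coeff_single_one_mul', X.coeff_T, X.coeff_T, X.left_iff (inv_mem (hN hn))]
end

theorem bn_st [Finite G] (P : BNPair G) {U : Subgroup G} (hU : U ≤ P.B) (h1 : ∀ b ∈ P.B, ∃ u ∈ U, u⁻¹ * b ∈ P.N) {n : G}
    (h2 : ∀ u ∈ U, n⁻¹ * u * n ∈ P.B → u = 1) : ∃ χ, IsIrrCharacter G χ ∧ χ 1 = Nat.card U := by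
  have := Fintype.ofFinite G
  obtain ⟨w, χ, a1, a2, a3, -⟩ := exists_st (CellSys.ofBN P)
  obtain ⟨m, -, hm⟩ := BN.exists_cell_nonempty w
  obtain ⟨v, hv⟩ := BN.exists_cell P n
  refine ⟨χ, a1, a2.trans ?_⟩
  exact_mod_cast (q_le (CellSys.ofBN P) hm fun b hb => (h1 b hb).imp fun u h => ⟨h.1, by
    simpa [CellSys.ofBN] using P.conj_mem _ (inv_mem m.2) _ ⟨P.B.mul_mem (inv_mem (hU h.1)) hb, h.2⟩⟩).antisymm ((le_q (CellSys.ofBN P) hv hU h2).trans (a3 v))

/-- there is an irreducible character of degree `|G|_p` -/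
def HS (p : ℕ) (G : Type*) [Group G] : Prop := ∃ χ, IsIrrCharacter G χ ∧ χ 1 = (p ^ (Nat.card G).factorization p : ℕ)

variable {p : ℕ}
theorem HS.of_equiv (h : HS p G') (e : G ≃* G') : HS p G :=
  let ⟨_, a, b⟩ := h; ⟨_, a.comp_equiv e, by rw [map_one, b, Nat.card_congr e.toEquiv]⟩
theorem HS.prod [Finite G] [Finite G'] (h : HS p G) (h' : HS p G') : HS p (G × G') :=
  let ⟨_, a, b⟩ := h; let ⟨_, a', b'⟩ := h'; ⟨_, a.prod_mul a', by
    simp [b, b', Nat.factorization_mul Nat.card_pos.ne' Nat.card_pos.ne', pow_add]⟩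
theorem hs_of_not_dvd (h : ¬ p ∣ Nat.card G) : HS p G := ⟨_, isIrrCharacter_one, by simp [Nat.factorization_eq_zero_of_not_dvd h]⟩
variable [hp : Fact p.Prime]
theorem hs_of_sylow [Finite G] (P : Sylow p G) (h : ∃ χ, IsIrrCharacter G χ ∧ χ 1 = Nat.card P) : HS p G := by
  rwa [P.card_eq_multiplicity] at h
theorem HS.out [Finite G] (h : HS p G) :
    ∃ χ, IsIrrCharacter G χ ∧ ∀ P : Sylow p G, χ 1 = Nat.card P ∧ ∀ x : G, x ∈ P → x ≠ 1 → χ x = 0 := by
  obtain ⟨χ, a, b⟩ := h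
  obtain ⟨M, hM⟩ := exists_isPModular p
  have : PM p M := ⟨hM⟩
  refine ⟨χ, a, fun P => ⟨by rw [b, P.card_eq_multiplicity], fun x hx h1 => vanish_of_zero (M := M) (χ := ⟨χ, a⟩) (p := p) ?_ ?_⟩⟩
  · rw [show charDegree χ = _ from Nat.cast_injective (a.coe_charDegree.trans b), hp.out.factorization_pow]; simp
  · exact by_contra fun e => h1 (eq_one_of_pow_coprime P.2 hx e (pow_orderOf_eq_one x))

theorem RK.hs [Finite G] (S : RK p G) : HS p G := by
  have := Fintype.ofFinite G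
  let I : InvGen Unit ℤˣ := ⟨fun _ => -1, by simp, fun w => (Int.units_eq_one_or w).elim (fun h => ⟨[], h.symm⟩) fun h => ⟨[()], by simp [h]⟩⟩
  let X : CellSys G I :=
    { B := S.B
      C w g := w = 1 ↔ g ∈ S.B
      exch := I.exchange_of_folding (by simp [I]) fun _ _ _ _ _ => mul_comm _ _
      one := by simp
      inv := by simp
      mul_left h hb := by rwa [mul_mem_cancel_left hb]
      trans {w g g'} h h' := by
        by_cases e : g ∈ S.B
        · exact ⟨_, mul_mem (h'.1 (h.2 e)) (inv_mem e), 1, one_mem _, by simp⟩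
        obtain ⟨u, hu, a⟩ := S.br g e
        obtain ⟨v, hv, b⟩ := S.br g' fun k => e (h.1 (h'.2 k))
        exact ⟨_, S.le (mul_mem hv (inv_mem hu)), _, mul_mem (inv_mem a) b, by group⟩
      uniq {v w g} h h' := by rcases Int.units_eq_one_or v with rfl | rfl <;> rcases Int.units_eq_one_or w with rfl | rfl <;> simp_all
      ex g := by by_cases e : g ∈ S.B; exacts [⟨1, by simp [e]⟩, ⟨-1, by simp [e]⟩]
      ne w := by rcases Int.units_eq_one_or w with rfl | rfl; exacts [⟨1, by simp⟩, ⟨S.w, by simp [S.hw]⟩]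
      s_mul {_ w x g} _ _ := by rcases Int.units_eq_one_or w with rfl | rfl <;> simp [I, em, em']
      s_mul_le {_ w x g} h a b := by
        rcases Int.units_eq_one_or w with rfl | rfl
        · simpa [I, mul_mem_cancel_right (b.1 rfl)] using a
        · simp [I, I.len_eq_zero_iff] at h }
  obtain ⟨w, χ, a1, a2, a3, -⟩ := exists_st X
  have hw : X.C (-1) S.w := by simp [X, S.hw]
  refine hs_of_sylow S.syl ⟨χ, a1, a2.trans ?_⟩
  refine mod_cast le_antisymm ?_ ((le_q X hw S.le S.ti).trans (a3 _))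
  rcases Int.units_eq_one_or w with rfl | rfl
  · exact q_le X (X.one.2 (one_mem _)) fun b hb => ⟨1, one_mem _, by simpa⟩
  · exact q_le X hw fun b hb => (S.br (b * S.w) (by simpa [mul_mem_cancel_left (show b ∈ S.B from hb)] using S.hw)).imp fun u h =>
      ⟨h.1, by simpa [mul_assoc] using h.2⟩

open Cfsg.Lie H12.StSys H12.Tw
variable {D : ChevalleyDatum} [Good D] {F : Type*} [Field F] [Finite F] [CharP F p] {Γ : Type*} [Group Γ] {S : StSys D F Γ} {R : RSym D}
  {θ : Γ →* GL D.Idx F} {K : Subgroup Γ}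
theorem hs_K [Finite K] {τ : Tw S R} (hK : τ.Adm K) (hθ : S.Cov θ) : HS p K := by
  obtain ⟨P, hP⟩ := exists_sylow hK hθ p
  obtain ⟨n, h1, h2⟩ := hK.exists_rep hθ (R.w0_mem)
  refine hs_of_sylow P (bn_st (hK.bn hθ) (U := P) (n := ⟨n, h1⟩) (fun u hu => S.U_le_B (hP.le hu)) (fun b hb => ?_) fun u hu h => ?_)
  · obtain ⟨u, hu, h, hh, e⟩ := hK.exists_uh hθ ⟨hb, b.2⟩
    exact ⟨⟨u, hu.2⟩, hP.ge hu.1, show u⁻¹ * b ∈ S.N by rw [show (b : Γ) = _ from e, inv_mul_cancel_left]; exact S.H_le_N hh.1⟩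
  · exact Subtype.ext (hθ.eq_one_of_U_H (hP.le hu) ((mem_H_iff hθ h2 _).2 ⟨S.U_le_B (hP.le hu), h⟩))
theorem hs_group : HS p (D.group F) := (hs_K (ga0 cov_ad p).adm cov_ad).of_equiv (MulEquiv.subgroupCongr group_eq)
theorem GAd.hs {τ : TwF S R} (h : GAd τ.toTw K p) (hθ : S.Cov θ) (e : G ≃* K) : HS p (G ⧸ Subgroup.center G) :=
  (hs_K (h.map hθ).adm cov_ad).of_equiv ((H11.centerQuotCongr e).trans (h.quot hθ))
theorem hs_quot (hθ : S.Cov θ) (hT : S.T = ⊤) : HS p (Γ ⧸ Subgroup.center Γ) :=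
  hs_group.of_equiv ((QuotientGroup.quotientMulEquivOfEq (by rw [toGroup_ker, hθ.ker_eq_center hT])).trans
    (QuotientGroup.quotientKerEquivOfSurjective _ (toGroup_surj hθ hT)))
theorem exists_cov_of (hT : S.T = ⊤) (h : ¬ IsPGroup p Γ) : ∃ θ, S.Cov θ := by
  have h1 := lift_surjective (r3_of_finite S) hT
  have h2 : ∀ g, g ∈ (stS D F).T := fun g => stS_T (D := D) (F := F) ▸ Subgroup.mem_top g
  rcases BN.normal_le_or_sup_eq_top cov_st.bn_irreducible ((r3_of_finite S).lift.ker.subgroupOf (stS D F).T) with e | e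
  · refine ⟨(r3_of_finite S).lift.liftOfSurjective h1 ⟨r3_ad.lift, fun k hk => cov_st.ker_of_normal_le_B
      (fun g _ k hk => Subgroup.Normal.conj_mem inferInstance k hk g) (fun k hk => e (x := ⟨k, h2 k⟩) hk) hk⟩, fun r t => ?_⟩
    rw [← (r3_of_finite S).lift_x, MonoidHom.liftOfRightInverse_comp_apply]; exact cov_st r t
  refine (h (((isPGroup_U cov_st p).map (r3_of_finite S).lift).of_surjective (Subgroup.subtype _) fun g => ⟨⟨g, ?_⟩, rfl⟩)).elim
  refine T_le_of_conj (S := S) (K := (stS D F).U.map (r3_of_finite S).lift) (fun g _ => ?_) (fun i t => ⟨_, (stS D F).x_mem_U (isPos_sim i) t, (r3_of_finite S).lift_x _ _⟩)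
    (hT ▸ Subgroup.mem_top g)
  obtain ⟨g, rfl⟩ := h1 g
  obtain ⟨a, ha, b, hb, e⟩ := Subgroup.mem_sup_of_normal_left.1 (e ▸ Subgroup.mem_top (⟨g, h2 g⟩ : (stS D F).T))
  rintro _ ⟨u, hu, rfl⟩
  refine ⟨b * u * (b : D.SteinbergGroup F)⁻¹, UJ_empty.le (conj_mem_of_normalizer (P_le_normalizer ∅ (P_empty.ge hb)) (UJ_empty.ge hu)), ?_⟩
  simp [← show a * b = g from congrArg Subtype.val e, show (r3_of_finite S).lift a = 1 from ha]

end H24
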