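import Cfsg.Agent.H24.StBN
import Cfsg.Agent.S0244
import Cfsg.Agent.S0245

/-! Steinberg characters of the classical groups (`hs_PSL`, `hs_PSp`, `hs_PSU`, `hs_minus`). -/

set_option autoImplicit false

namespace H24
open Cfsg Cfsg.Lie H12 H12.StSys Matrix
open scoped MatrixGroups

variable {p : ℕ} [hp : Fact p.Prime] (F : Type*) [Field F] [Fintype F] [CharP F p]

theorem hs_PSL {n : ℕ} (h : 2 ≤ n) : HS p PSL(n, F) := by
  rcases h.eq_or_lt with rfl | h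
  · exact (rkPSL F).hs
  obtain ⟨l, rfl⟩ : ∃ l, n = l + 1 := ⟨n - 1, by omega⟩
  exact hs_quot (cov_A (by omega) F) (sysA_T _ F)
/-- `Sp₂ = SL₂` -/
def spOne (F : Type*) [Field F] : symplecticGroup (Fin 1) F ≃* SL(2, F) where
  toFun g := ⟨reindex finSumFinEquiv finSumFinEquiv g.1, by rw [det_reindex_self, (Cfsg.Agent.S0244.result _).1 g.2]⟩
  invFun g := ⟨reindex finSumFinEquiv.symm finSumFinEquiv.symm g.1, (Cfsg.Agent.S0244.result _).2 (by rw [det_reindex_self, g.2])⟩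
  left_inv g := Subtype.ext (by simp)
  right_inv g := Subtype.ext (by simp)
  map_mul' g h := Subtype.ext ((reindexAlgEquiv F F finSumFinEquiv).map_mul' g.1 h.1)
theorem hs_PSp {m : ℕ} (h : 1 ≤ m) : HS p (PSp m F) := by
  rcases h.eq_or_lt with rfl | h
  · exact (hs_PSL F le_rfl).of_equiv (H11.centerQuotCongr (spOne F))
  obtain ⟨S, hT, -⟩ := exists_sysC h F
  obtain ⟨θ, hθ⟩ := exists_cov_of (p := p) hT fun a => by
    obtain ⟨k, hk⟩ := a.exists_card_eq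
    obtain ⟨j, -, hj⟩ := FiniteField.card F p
    have h1 : Fintype.card F ^ (2 * (0 + 1)) - 1 ∣ p ^ k := hk ▸ Cfsg.Agent.S0245.result (F := F) rfl m ▸
      (Finset.dvd_prod_of_mem _ (Finset.mem_range.2 (by omega))).mul_left _
    have h2 : 2 ^ 2 ≤ Fintype.card F ^ (2 * (0 + 1)) := Nat.pow_le_pow_left Fintype.one_lt_card 2
    obtain ⟨_ | i, -, e⟩ := (Nat.dvd_prime_pow hp.out).1 h1
    · rw [pow_zero] at e; omega
    · exact hp.out.not_dvd_one ((Nat.dvd_add_right (e ▸ dvd_pow_self p i.succ_ne_zero)).1 (by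
        rw [Nat.sub_add_cancel (by omega), hj]; exact (dvd_pow_self p j.ne_zero).pow (by simp)))
  exact hs_quot hθ hT
theorem hs_PSU {n q : ℕ} (hq : Fintype.card F = q ^ 2) (h : 3 ≤ n) : HS p (PSU n F q) := by
  obtain ⟨l, rfl⟩ : ∃ l, n = l + 1 := ⟨n - 1, by omega⟩
  obtain ⟨φ, h1, h2, h3⟩ := H11.exists_frob hq
  exact (ga_A (by omega) φ h2 h3 p).hs (cov_A _ F) (exists_fix_SU _ φ h2 h3 h1).some
theorem hs_minus {m : ℕ} {a b : F} (h : 3 ≤ m) (hab : H11.Aniso a b) : HS p (POmega F (quadFormMinus m F a b)) := by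
  obtain ⟨K, _, _, _, φ, f, w, h1, e1, e2, e3, e4⟩ := exists_quadExt hab p
  obtain ⟨θ, hθ⟩ := exists_cov_D (K := K) (m := m) (by omega) (by omega)
  obtain ⟨K₁, h2, ⟨e⟩⟩ := exists_ga_desc _ _ h1 e1 e2 e3 e4 hab p hθ
  exact (h2.hs hθ e).of_equiv (H11.pomegaEquiv (H11.qMinus m F a b))

end H24
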