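import Cfsg.Agent.H24.StCl
import Cfsg.Agent.H19.Iso

/-! Steinberg characters of the small orthogonal groups (`hs_dih`, `hs_four_two`). -/

set_option autoImplicit false

namespace H24
open Cfsg Matrix H11 H11.PForm Subgroup H19.Iso
open scoped MatrixGroups commutatorElement

variable {p : ℕ} [hp : Fact p.Prime] {G G' : Type*} [Group G] [Group G']

omit hp in
theorem HS.of_surj [Finite G] (h : HS p G') (f : G →* G') (hf : Function.Surjective f) (hk : ¬ p ∣ Nat.card f.ker) : HS p G :=
  let ⟨_, a, b⟩ := h; ⟨_, H5.Cfsg.IsIrrCharacter.comp_surjective a f hf, by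
    have := Finite.of_surjective f hf
    rw [map_one, b, card_eq_card_quotient_mul_card_subgroup f.ker, Nat.card_congr (QuotientGroup.quotientKerEquivOfSurjective f hf).toEquiv,
      Nat.factorization_mul Nat.card_pos.ne' Nat.card_pos.ne', Finsupp.add_apply, Nat.factorization_eq_zero_of_not_dvd hk, add_zero]⟩

theorem hs_dih {n : ℕ} (e : G ≃* DihedralGroup n) : HS p (commutator G ⧸ center (commutator G)) := by
  have k : ∀ g ∈ commutator (DihedralGroup n), ∃ i, g = .r i := fun g hg => by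
    refine (commutator_le (H₃ := ⟨⟨⟨{g | ∃ i, g = .r i}, ?_⟩, 0, rfl⟩, ?_⟩).2 (fun a _ b _ => ?_) : _ ≤ _) hg
    · rintro _ _ ⟨i, rfl⟩ ⟨j, rfl⟩; exact ⟨_, rfl⟩
    · rintro _ ⟨i, rfl⟩; exact ⟨_, rfl⟩
    · rcases a with a | a <;> rcases b with b | b <;> exact ⟨_, rfl⟩
  have : center (commutator (DihedralGroup n)) = ⊤ := eq_top_iff.2 fun a _ => mem_center_iff.2 fun b => Subtype.ext (by
    obtain ⟨i, hi⟩ := k _ a.2
    obtain ⟨j, hj⟩ := k _ b.2
    simp [hi, hj, add_comm])
  refine (hs_of_not_dvd ?_).of_equiv (centerQuotCongr (commutatorCongr e))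
  rw [← index_eq_card, this, index_top]; exact hp.out.not_dvd_one

theorem hs_four_two {F : Type*} [Field F] [Fintype F] [CharP F p] (h : Fintype.card F = 2) : HS p (PO (sPlus 2 F)) := by
  obtain rfl : p = 2 := by
    obtain ⟨j, -, hj⟩ := FiniteField.card F p
    exact (Nat.prime_dvd_prime_iff_eq hp.out Nat.prime_two).1 (h ▸ hj ▸ dvd_pow_self p j.ne_zero)
  have t2 : (2 : F) = 0 := CharP.cast_eq_zero F 2
  have hS := sPlus_nondeg 2 F
  let m : (Fin 2 ⊕ Fin 2 → F) →ₗ[F] Matrix (Fin 2) (Fin 2) F :=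
    ⟨⟨fun v => !![v (.inl 0), v (.inl 1); -v (.inr 1), v (.inr 0)], fun x y => by
      ext i j; fin_cases i <;> fin_cases j <;> simp [add_comm]⟩, fun c x => by ext i j; fin_cases i <;> fin_cases j <;> simp⟩
  have hm : ∀ v, m v = !![v (.inl 0), v (.inl 1); -v (.inr 1), v (.inr 0)] := fun _ => rfl
  have hq : ∀ v, (sPlus 2 F).q v = (m v).det := fun v => by
    change qPlus 2 F v = _
    simp [hm, qPlus_apply, det_fin_two]
  have hs : ∀ N, ∃ v, m v = N := fun N => ⟨Sum.elim ![N 0 0, N 0 1] ![N 1 1, -N 1 0], by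
    ext i j; fin_cases i <;> fin_cases j <;> simp [hm]⟩
  have hi : Function.Injective m := fun x y h => by
    ext (i | i) <;> fin_cases i
    exacts [congr($h 0 0), congr($h 0 1), congr($h 1 1), neg_injective congr($h 1 0)]
  obtain ⟨φ, hφ⟩ := exists_rep (G := SL(2, F) × SL(2, F)) hS (fun g => g.1.1) (fun g => g.2⁻¹.1) (fun _ _ => rfl)
    (fun _ _ => by simp) m hi fun g v => by
      obtain ⟨w, e⟩ := hs (g.1.1 * m v * g.2⁻¹.1)
      exact ⟨w, e, by rw [hq, hq, e, det_mul, det_mul, g.1.2, g.2⁻¹.2, one_mul, mul_one]⟩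
  have c6 : Nat.card SL(2, F) = 6 := by rw [H10.card_SL2, h]
  have cz : center SL(2, F) = ⊥ := card_eq_one.1 (by rw [H10.card_center_SL2, h]; rfl)
  have hφi : Function.Injective φ := (injective_iff_map_eq_one φ).2 fun g hg => by
    have k : ∀ N, g.1.1 * N = N * g.2.1 := fun N => by
      obtain ⟨v, rfl⟩ := hs N
      conv_rhs => rw [show m v = m ((φ g).1 v) by rw [hg]; rfl, hφ, Matrix.mul_assoc, inv_mul_val, Matrix.mul_one]
    have k1 : g.1 = g.2 := Subtype.ext (by simpa using k 1)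
    have : g.2 = 1 := mem_bot.1 (cz ▸ mem_center_iff.2 fun x => Subtype.ext (k1 ▸ (k x.1).symm))
    exact Prod.ext (k1.trans this) this
  have : Finite (sPlus 2 F).Isom := finite_isom
  have c72 : Nat.card (sPlus 2 F).Isom = 72 := by
    rw [hS.orth_card_plus (m := 2) one_le_two (by simp) (sPlus_hasTS 2 F), Nat.card_eq_fintype_card, h]; rfl
  have i2 : φ.range.index = 2 := by
    have := φ.range.index_mul_card
    rw [c72, ← Nat.card_congr (MonoidHom.ofInjective hφi).toEquiv, Nat.card_prod, c6] at this; omega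
  have l1 : commutator _ ≤ φ.range := commutator_le.2 fun a _ b _ => by
    simp only [commutatorElement_def, mul_mem_iff_of_index_two i2, inv_mem_iff]; tauto
  let X := {v // (sPlus 2 F).q v = 1}
  let ρ : (sPlus 2 F).Isom →* Equiv.Perm X := MonoidHom.mk' (fun g => g.1.toEquiv.subtypeEquiv fun v => by
    rw [show (sPlus 2 F).q (g.1.toEquiv v) = _ from g.2.orth_q v]) fun _ _ => rfl
  have cX : Nat.card X = 6 := c6 ▸ Nat.card_eq_of_bijective (fun v => (⟨m v.1, (hq _).symm.trans v.2⟩ : SL(2, F)))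
    ⟨fun x y e => Subtype.ext (hi (congrArg Subtype.val e)), fun g => let ⟨v, e⟩ := hs g.1
      ⟨⟨v, (hq _).trans (e ▸ g.2)⟩, Subtype.ext e⟩⟩
  classical
  have := Fintype.ofFinite X
  let a : SL(2, F) := ⟨!![1, 1; 0, 1], by simp⟩
  have sa : Equiv.Perm.sign (ρ (φ (a, 1))) = -1 := by
    rw [Equiv.Perm.sign_of_pow_two_eq_one, ← Nat.card_eq_fintype_card, cX, Fintype.card_eq_zero_iff.2 ⟨fun v => ?_⟩]
    · rfl
    · have e := (congrArg (fun x : X => m x.1) v.2).symm.trans (hφ (a, 1) v.1.1)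
      have d := (hq _).symm.trans v.1.2
      have e0 := congr($e 0 0)
      have e1 := congr($e 0 1)
      simp [a, mul_apply, Fin.sum_univ_two, vecMul, dotProduct] at e0 e1
      simp [det_fin_two, e0, e1] at d
    · rw [← map_pow, ← map_pow, show (a, 1) ^ 2 = (1 : SL(2, F) × SL(2, F)) from Prod.ext (Subtype.ext (by
        change a.1 ^ 2 = 1
        ext i j; fin_cases i <;> fin_cases j <;> simp [a, sq, one_add_one_eq_two, t2])) (by simp), map_one, map_one]
  let K := (commutator _).comap φ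
  have c18 : Nat.card K ∣ 18 := by
    let ψ := (Equiv.Perm.sign.comp ρ).comp φ
    have : ψ.range = ⊤ := eq_top_iff.2 fun x _ => by
      rcases Int.units_eq_one_or x with rfl | rfl
      exacts [one_mem _, ⟨_, sa⟩]
    have e := ψ.ker.index_mul_card
    rw [index_ker, this, card_top, Nat.card_prod, c6, Nat.card_eq_fintype_card, Fintype.card_units_int] at e
    exact (show Nat.card ψ.ker = 18 by omega) ▸ card_dvd_of_le fun g hg => Abelianization.commutator_subset_ker (Equiv.Perm.sign.comp ρ) hg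
  choose f hf using fun v => hs (m v)ᵀ
  let τ := mkIsom hS ⟨⟨f, fun x y => hi (by simp [hf])⟩, fun c x => hi (by simp [hf])⟩ (orth_isIsom fun x => by
    change (sPlus 2 F).q (f x) = (sPlus 2 F).q x
    rw [hq, hq, hf, det_transpose])
  have hτ : ∀ v, m (τ.1 v) = (m v)ᵀ := hf
  let π := (MonoidHom.fst _ _).comp K.subtype
  have hπ : Function.Surjective π := fun g => ⟨⟨(g, g.transpose), by
    have : φ (g, g.transpose) = ⁅φ (g, 1), τ⁆ := by
      rw [commutatorElement_def, eq_mul_inv_iff_mul_eq, ← map_inv]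
      refine isom_ext fun x => hi ?_
      change m ((φ _).1 (τ.1 x)) = m ((φ _).1 (τ.1 ((φ _).1 x)))
      simp only [hφ, hτ]
      simp [Matrix.mul_assoc, adjugate_transpose]
    exact mem_comap.2 (this ▸ commutator_mem_commutator (mem_top _) (mem_top _))⟩, rfl⟩
  let π' := QuotientGroup.map (center K) (center SL(2, F)) π fun z hz => mem_center_iff.2 fun g => by
    obtain ⟨g, rfl⟩ := hπ g
    rw [← map_mul, ← map_mul, mem_center_iff.1 hz]
  have hπ' : Function.Surjective π' := fun g => by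
    obtain ⟨g, rfl⟩ := QuotientGroup.mk_surjective g
    obtain ⟨g, rfl⟩ := hπ g
    exact ⟨g, rfl⟩
  refine ((hs_PSL F le_rfl).of_surj π' hπ' fun e => ?_).of_equiv (centerQuotCongr
    ((K.equivMapOfInjective φ hφi).trans (MulEquiv.subgroupCongr (map_comap_eq_self l1))).symm)
  have e1 := π'.ker.index_mul_card
  rw [index_ker, π'.range_eq_top.2 hπ', card_top, show Nat.card PSL(2, F) = 6 by simpa [h] using H10.card_PSL2 (F := F)] at e1
  exact absurd (((mul_dvd_mul_left 6 e).trans (e1 ▸ (center K).index_dvd_card)).trans c18) (by decide)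

end H24
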