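import Cfsg.Agent.H24.Su3
import Cfsg.Agent.H24.ClC
import Cfsg.Agent.H11.Wall
import Cfsg.Agent.S0822

/-! The Schur multiplier of `SUₙ(q)` (`schur_SU`); the base case `SU₄(2)`. -/

set_option autoImplicit false

namespace H24
open H11 H11.PForm Subgroup Module
open scoped commutatorElement

theorem sp_center {F : Type*} [Field F] {z : Matrix.symplecticGroup (Fin 2) F} (hz : z ∈ center _) :
    z = 1 ∨ z = SymplecticGroup.symJ _ _ * SymplecticGroup.symJ _ _ := by
  have hS := stdSymp_nondeg (F := F) 2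
  obtain ⟨e, f, H⟩ := hS.symp_exists_hyp (by simp)
  obtain ⟨c, hc⟩ := (H.mem_center_Isom_iff hS (symp_rich _ 3) _).1 ((mem_center_iff_equiv (spEquiv 2 F) z).1 hz)
  have := isom_h (spEquiv 2 F z) e f
  simp only [hc, map_smul, LinearMap.smul_apply, H.h_ef, smul_eq_mul, mul_one] at this
  refine (mul_self_eq_one_iff.1 this).imp (fun h => (spEquiv 2 F).injective (isom_ext fun x => ?_))
    fun h => (spEquiv 2 F).injective (isom_ext fun x => ?_)
  · rw [hc, h]; simp
  · rw [hc, h, spEquiv_apply]; simp [Matrix.J_squared, Matrix.neg_mulVec]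

variable {F : Type*} [Field F] {σ : F →+* F} {hσ : ∀ a, σ (σ a) = a} {V : Type*} [AddCommGroup V] [Module F V]
  {S : PForm (unitP σ hσ) V} {E : Type*} [Group E] {π : E →* S.Isom} [FiniteDimensional F V] [Finite F] (hne : σ ≠ RingHom.id F) (hS : S.Nondeg)
  (hF : Nat.card F = 2 ^ 2)
include hne hS hF

omit hne hS [FiniteDimensional F V] in
theorem two_eq_zero4 : (2 : F) = 0 := by
  have := Fintype.ofFinite F
  have e := FiniteField.cast_card_eq_zero F
  rw [← Nat.card_eq_fintype_card, hF] at e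
  exact pow_eq_zero_iff (two_ne_zero) |>.1 (by exact_mod_cast e)

theorem quad_ind {R : Submodule F V} (hR : ∀ u ∈ R, ∀ v ∈ R, S.h u v = 0) {M : Subgroup S.Isom} (hM : ∀ u ∈ R, S.eich u 0 1 ∈ M) (n : ℕ) :
    ∀ g : S.Isom, finrank F (res g) ≤ n → res g ≤ R → g ∈ M := by
  have h2 := two_eq_zero4 hF
  induction n with
  | zero => intro g h _; rw [res_eq_bot_iff.1 (Submodule.finrank_eq_zero.1 (Nat.le_zero.1 h))]; exact one_mem _
  | succ n ih =>
    intro g h hg
    by_cases hx : ∀ x, S.h x (x - g.1 x) = 0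
    · obtain ⟨c, hc⟩ := exists_σ_ne hne
      refine (isom_ext fun y => (sub_eq_zero.1 (hS.eq_zero' fun x => ?_)).symm : g = 1) ▸ one_mem M
      have e1 := hx (x + y)
      have e2 := hx (x + c • y)
      have e3 := hx x
      have e4 := hx y
      simp only [map_add, map_sub, map_smul, LinearMap.add_apply, LinearMap.map_smulₛₗ₂, smul_eq_mul] at e1 e2 e3 e4
      refine mul_left_cancel₀ (sub_ne_zero.2 hc) ?_
      simp only [map_sub, OneMemClass.coe_one, LinearEquiv.coe_one, id]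
      linear_combination σ c * e1 - e2 + (1 - σ c) * e3 + (σ c * c - σ c) * e4
    push Not at hx
    obtain ⟨x, hx⟩ := hx
    obtain ⟨u, hu, mu⟩ : ∃ u, x - g.1 x = u ∧ u ∈ res g := ⟨_, rfl, sub_mem_res g x⟩
    have gu : g.1 u = u := mem_fixSp.1 (hS.perp_res g ▸ fun v hv => hR v (hg hv) u (hg mu))
    have uu := hR u (hg mu) u (hg mu)
    have ux : S.h u x = -1 := by
      have e : S.h x u + S.h u x = 0 := by rw [← uu, ← hu]; simp; ring
      rw [hu] at hx
      rw [S.unit_symm x u, unit_σ_eq hσ hne hF] at e ⊢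
      rw [show S.h x u = -1 from mul_left_cancel₀ hx (by linear_combination e)]; linear_combination h2
    have ap : ∀ y, (g * S.eich u 0 1).1 y = g.1 y - S.h u y • u := fun y => by
      rw [isom_mul_apply, transv_apply ((S.unit_sing u).2 uu) (mem_unitP_Λ.2 (by rw [map_one]; linear_combination h2))]; simp [gu]
    have le : res (g * S.eich u 0 1) ≤ res g := fun v hv => by
      obtain ⟨y, rfl⟩ := mem_res.1 hv
      rw [ap, ← sub_add]; exact add_mem (sub_mem_res g y) (Submodule.smul_mem _ _ mu)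
    refine (M.mul_mem_cancel_right (hM u (hg mu))).1 (ih _ (Nat.le_of_lt_succ ((Submodule.finrank_lt_finrank_of_lt
      (lt_of_le_of_ne le fun e => hx ?_)).trans_le h)) (le.trans hg))
    exact hu ▸ h_res_of_fix (by rw [ap, ux, ← hu]; simp) (e ▸ mu)

theorem su_base (hc : π.ker ≤ center E) (hr : S.SIsom ≤ π.range) (h5 : 5 ≤ finrank F V) {A : Submodule F V} (hA : (S.restrict A).Nondeg)
    (h4 : finrank F (S.perp A) = 4) : ∃ φ, Sc π (SA S A) φ := by
  have := Fintype.ofFinite F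
  have h2 := two_eq_zero4 hF
  have hT := hS.restrict_perp hA
  obtain ⟨e1⟩ := exists_suIso hne (unit_σ_eq hσ hne hF) hT h4
  obtain ⟨e2⟩ := Cfsg.Agent.S0822.result (F := F) (K := ZMod 3) (Nat.card_eq_fintype_card.symm.trans hF) rfl
  have z : center (Cfsg.SU 4 F 2) = ⊥ := card_eq_one.1 (by
    rw [Nat.card_congr (subgroupEquivOfIff e1 (mem_center_iff_equiv _)).toEquiv, hT.unit_card_center hne hF h4 (by omega)]; rfl)
  let e3 := (e2.symm.trans ((QuotientGroup.quotientMulEquivOfEq z).trans QuotientGroup.quotientBot)).trans e1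
  let ξ := (((ext1 hT).comp (Subgroup.subtype _)).comp e3.toMonoidHom).comp (QuotientGroup.mk' _)
  have ξr : ξ.range = SA S A := by
    rw [SA_map hS hA, MonoidHom.range_comp, QuotientGroup.range_mk', ← MonoidHom.range_eq_map, MonoidHom.range_comp _ e3.toMonoidHom,
      (MonoidHom.range_eq_top (f := e3.toMonoidHom)).2 e3.surjective, ← MonoidHom.range_eq_map]
  have ξk : ∀ s, ξ s = 1 → s = 1 ∨ s = SymplecticGroup.symJ _ _ * SymplecticGroup.symJ _ _ := fun s h => sp_center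
    ((QuotientGroup.eq_one_iff s).1 ((((ext1_injective hT).comp Subtype.val_injective).comp e3.injective) (h.trans (map_one (((ext1 hT).comp
      (Subgroup.subtype _)).comp e3.toMonoidHom)).symm)))
  have ξJ : ξ (SymplecticGroup.symJ _ _ * SymplecticGroup.symJ _ _) = 1 := by
    rw [MonoidHom.comp_apply, QuotientGroup.mk'_apply, (QuotientGroup.eq_one_iff _).2 (mem_center_iff.2 fun g => Subtype.ext (by
      simp [Matrix.J_squared])), map_one]
  obtain ⟨h1, hp⟩ := schur_Sp (l := 2) le_rfl (ZMod 3) (by simp)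
  obtain ⟨η, hη⟩ := H21.exists_lift_of_perfect_of_trivial ⟨hp⟩ h1 (ξ.codRestrict π.range fun x => hr (ξr.le ⟨x, rfl⟩).1) π.rangeRestrict
    π.rangeRestrict_surjective (by rwa [MonoidHom.ker_rangeRestrict])
  have e : π.comp η = ξ := MonoidHom.ext fun x => congrArg Subtype.val (DFunLike.congr_fun hη x)
  have e' : ∀ x, π (η x) = ξ x := DFunLike.congr_fun e
  clear_value ξ
  clear hη
  rw [← ξr, ← e]
  refine sc_of_hom η fun s hs => (ξk s (e' s ▸ hs)).elim (fun h => by rw [h, map_one]) fun h => ?_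
  have k1 : ∀ s, ξ s = 1 → η s * η s = 1 := fun s h => by
    rw [← map_mul, show s * s = 1 by rcases ξk s h with rfl | rfl <;> [simp; exact Subtype.ext (by simp [Matrix.J_squared])], map_one]
  have k2 : ∀ s s', ξ s = ξ s' → η s * η s = 1 → η s' * η s' = 1 := fun s s' h h' => by
    have h1 : ξ (s⁻¹ * s') = 1 := by simp [h]
    rw [← mul_inv_cancel_left s s', map_mul, Commute.mul_mul_mul_comm (mem_center_iff.1 (hc ((e' _).trans h1)) _).symm, h', k1 _ h1, one_mul]
  have d := hS.finrank_perp A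
  obtain ⟨s₀, a1, a2⟩ := unit_exists_norm_mem hne hA (by omega) (map_one σ)
  have mK : ∀ u ∈ S.perp A, ∀ v ∈ S.perp A, ∀ a, S.eich u v a ∈ ξ.range := fun u hu v hv a => ξr.ge ⟨S.eich_mem_SIsom _ _ _, fun x hx =>
    eich_apply_of_perp_perp (S.h_swap_zero (hu x hx)) (S.h_swap_zero (hv x hx))⟩
  have cen : ∀ {g : S.Isom} {v : V}, g ∈ S.SIsom → g.1 v = v → g ∈ centralizer {S.eich v 0 1} ⊓ π.range := fun m h =>
    ⟨mem_centralizer_singleton_iff.2 (by rw [← mul_inv_eq_iff_eq_mul, conj_eich, h, map_zero]), hr m⟩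
  have sq : ∀ u ∈ S.perp A, S.h u u = 0 → ∀ s, ξ s = S.eich u 0 1 → η s * η s = 1 := fun u hu uu s hs => by
    have : Nontrivial (S.perp A) := Module.nontrivial_of_finrank_pos (R := F) (by omega)
    obtain ⟨x, xx⟩ := hT.unit_exists_norm hne (map_one σ)
    obtain ⟨⟨w, mw⟩, ww, -, uw⟩ := hT.unit_perp2 hne h4.ge xx ⟨u, hu⟩
    obtain ⟨⟨w', mw'⟩, ww', w1, uw'⟩ := hT.unit_perp2 hne h4.ge ww ⟨u, hu⟩
    simp only [restrict_h] at ww uw ww' w1 uw'
    obtain ⟨μ, m1, m2⟩ := exists_norm1 hσ hne hF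
    let l : normOne σ := ⟨Units.mk0 μ (by rintro rfl; simp at m1), m1⟩
    have su := (S.unit_sing u).2 uu
    have lc := fun c b => lcm_of hc ((eich_mem_comm hne (D := centralizer {S.eich u 0 1} ⊓ π.range) su uw (by simp [ww])
      fun c b => cen (S.eich_mem_SIsom _ _ _) (eich_apply_self _ _ _)).2 _ (cen (dn_mem ww ww' (S.h_swap_zero uw) (S.h_swap_zero uw') l).1
        (by rw [isom_mul_apply, dn_perp ww' _ (S.h_swap_zero uw'), dn_perp ww _ (S.h_swap_zero uw)])) μ (by rintro rfl; simp at m2)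
        (by rw [isom_mul_apply, dn_perp ww' _ (S.h_swap_zero uw'), dn_perp ww _ (S.h_swap_zero uw)])
        (by rw [isom_mul_apply, dn_perp ww' _ (S.h_swap_zero w1), dn_self]; rfl) c b)
    obtain ⟨θ, hθ⟩ := exists_trace_one hσ hne
    have ec : ∀ c : F, S.ECond u (c • w) (S.q (c • w)) := fun c => .of_q su (by simp [uw])
    obtain ⟨a, ha⟩ := mK u hu _ (Submodule.smul_mem _ (1 : F) mw) (S.q ((1 : F) • w))
    obtain ⟨b, hb⟩ := mK u hu _ (Submodule.smul_mem _ θ mw) (S.q (θ • w))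
    have c1 : ξ ⁅a, b⁆ = S.eich u 0 1 := by
      rw [map_commutatorElement, ha, hb, commutator_eich (ec _) (ec _)]; congr 1; simp [ww]; linear_combination hθ - σ θ * h2
    have c2 : ξ (a * a) = S.eich u 0 1 := by
      rw [map_mul, ha, eich_mul (ec _) (ec _), ← add_smul, one_add_one_eq_two, h2, zero_smul]; congr 1; simp [ww]; linear_combination S.q w * h2
    refine k2 _ _ (c1.trans hs.symm) ?_
    have c3 := lc _ _ _ _ ((e' a).trans ha) ((e' _).trans c1)
    have c4 := lc _ _ _ _ ((e' b).trans hb) ((e' _).trans c2)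
    rw [map_commutatorElement] at c3 ⊢
    rw [← c4.symm.commutator_eq, map_mul, show ⁅η a * η a, η b⁆ = η a * ⁅η a, η b⁆ * (η a)⁻¹ * ⁅η a, η b⁆ by group, c3.eq, mul_inv_cancel_right]
  obtain ⟨J, hJ⟩ : ∃ J, J = SymplecticGroup.symJ (Fin 2) (ZMod 3) := ⟨_, rfl⟩
  rw [← hJ] at h ξJ
  have mJ := ξr.le ⟨J, rfl⟩
  have hR : ∀ u ∈ res (ξ J), u ∈ S.perp A ∧ ∀ v ∈ res (ξ J), S.h u v = 0 := fun u hu => ⟨fun x hx => h_res_of_fix (mJ.2 x hx) hu, fun v hv => by
    obtain ⟨x, rfl⟩ := mem_res.1 hu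
    refine h_res_of_fix ?_ hv
    rw [map_sub, ← isom_mul_apply, ← map_mul, ξJ, sub_eq_iff_eq_add, ← sub_eq_zero]
    exact (by module : (ξ J).1 x - (x - (ξ J).1 x + x) = (2 : F) • ((ξ J).1 x - x)).trans (by rw [h2, zero_smul])⟩
  let X : Set E := {x | ∃ s, ∃ u ∈ res (ξ J), ξ s = S.eich u 0 1 ∧ η s = x}
  have cX : closure X ≤ centralizer X := (closure_le _).2 (by
    rintro _ ⟨s, u, hu, h1, rfl⟩ _ ⟨s', v, hv, h2, rfl⟩
    refine (lcm_of hc ((eich_mem_comm hne (D := centralizer {S.eich u 0 1} ⊓ π.range) ((S.unit_sing v).2 ((hR v hv).2 v hv))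
      (S.h_swap_zero ((hR v hv).1 _ a1)) (by simp [a2]) fun c b => cen (S.eich_mem_SIsom _ _ _) ?_).1 1) _ _ ((e' _).trans h2) ((e' _).trans h1)).eq
    exact eich_apply_of_perp_perp ((hR v hv).2 u hu) (by simp [(hR u hu).1 _ a1]))
  have cX' : closure X ≤ centralizer (closure X : Subgroup E) := by rwa [centralizer_closure]
  have k3 : ∀ x ∈ closure X, x * x = 1 := fun x hx => closure_induction (by
    rintro _ ⟨s, u, hu, h1, rfl⟩; exact sq u (hR u hu).1 ((hR u hu).2 u hu) s h1) (one_mul 1) (fun x y hx hy h1 h2 => by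
      rw [Commute.mul_mul_mul_comm (cX' hx y hy), h1, h2, one_mul]) (fun x _ h => by rw [← mul_inv_rev, h, inv_one]) hx
  obtain ⟨s', h1, h2⟩ := quad_ind hne hS hF (fun u hu => (hR u hu).2) (M := ((closure X).comap η).map ξ) (fun u hu => by
    obtain ⟨s, hs⟩ := mK u (hR u hu).1 0 (zero_mem _) 1
    exact ⟨s, subset_closure ⟨s, u, hu, hs, rfl⟩, hs⟩) _ _ le_rfl le_rfl
  rw [h, map_mul]
  exact k2 _ _ h2 (k3 _ h1)

omit hF in
theorem schur_su {n q : ℕ} (hF : Nat.card F = q ^ 2) (d : finrank F V = n) (hn : 3 ≤ n) (h3 : ¬ (n = 3 ∧ q = 2))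
    (hexc : (n, q) ∉ ({(4, 2), (4, 3), (6, 2)} : Set (ℕ × ℕ))) : Cfsg.HasCyclicSchurMultiplier S.SIsom 1 := by
  have q2 := two_le_of_card_sq hF
  simp only [Set.mem_insert_iff, Set.mem_singleton_iff, Prod.mk.injEq, not_or] at hexc
  have : Finite V := Module.finite_of_finite F
  have : Finite S.Isom := Finite.of_injective (fun g : S.Isom => (g.1 : V → V)) fun _ _ h => isom_ext (congrFun h)
  refine H21.schur_trivial_of_forall_stem fun Γ _ _ s hs => ?_
  have hc : (S.SIsom.subtype.comp s).ker ≤ center Γ := MonoidHom.ker_comp_of_injective s _ S.SIsom.subtype_injective ▸ hs.2.1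
  have hr : S.SIsom ≤ (S.SIsom.subtype.comp s).range := by
    rw [MonoidHom.range_comp, MonoidHom.range_eq_top.2 hs.1, ← MonoidHom.range_eq_map, range_subtype]
  have hb : (S.restrict ⊥).Nondeg := (S.restrict_nondeg_iff' _).2 (by simp)
  have d0 := hS.finrank_perp ⊥
  rw [finrank_bot] at d0
  obtain ⟨φ, hφ⟩ : ∃ φ, Sc (S.SIsom.subtype.comp s) (SA S ⊥) φ := by
    by_cases h : q = 2
    · subst h
      exact su_all hne hS hF hc hr (m := 4) (by omega) (by omega) (by omega) (fun A hA => su_base hne hS hF hc hr (by omega) hA) (n - 4) ⊥ hb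
        (by omega)
    · refine su_all hne hS hF hc hr (m := 3) le_rfl (by omega) (by omega) (fun A hA e => ?_) (n - 3) ⊥ hb (by omega)
      have hT := hS.restrict_perp hA
      rw [SA_map hS hA]
      exact sc_of_schur hc _ ((ext1_injective hT).comp Subtype.val_injective) (SA_map hS hA ▸ inf_le_left.trans hr)
        (su_perf hne hT hF (by omega)) (schur_su3 hne hT hF e (by omega))
  rw [SA, fix_bot, inf_top_eq] at hφ
  exact H21.stem_ker_eq_bot_of_section s hs hφ.1.hom (MonoidHom.ext fun g => Subtype.ext (hφ.2 g g.2))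

omit hne hS hF [Finite F] in
theorem schur_SU [Fintype F] {n q : ℕ} (hF : Fintype.card F = q ^ 2) (hn : 3 ≤ n) (h3 : ¬ (n = 3 ∧ q = 2))
    (hexc : (n, q) ∉ ({(4, 2), (4, 3), (6, 2)} : Set (ℕ × ℕ))) : Cfsg.HasCyclicSchurMultiplier (Cfsg.SU n F q) 1 := by
  obtain ⟨σ, h1, hσ, hne⟩ := exists_frob hF
  exact H21.schur_congr_left (schur_su hne (stdUnit_nondeg hσ hne _) (Nat.card_eq_fintype_card.trans hF) (by simp) hn h3 hexc)
    (suEquiv hσ hne h1 n).symm

end H24
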