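import Cfsg.Agent.H24.U3a

/-! Kernel checks: monomial, orthogonal and extraspecial-normalising matrices preserve the marked point sets. -/

set_option autoImplicit false
set_option maxRecDepth 100000

namespace H24.U3
open Matrix Cfsg.Geo H29

variable {p : ℕ} [Fact p.Prime] [Fact (∀ r : ZMod p, r ^ 2 ≠ 2 + 0 * r)] (t : Tb p)

/-- strict evaluation -/
def frc (n : ℕ) (f : ℕ → Bool) : Bool := Nat.casesOn n (f 0) fun k => f k.succ
/-- check for a matrix given by the codes of its columns -/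
def Tb.cm (m u0 u1 u2 v0 v1 v2 w0 w1 w2 : ℕ) : Bool :=
  Ck p m fun x y z => frc (t.dt u0 v0 w0 x y z) fun a => frc (t.dt u1 v1 w1 x y z) fun b => frc (t.dt u2 v2 w2 x y z) fun c => t.pc m a b c
/-- all triples -/
def a3 (n : ℕ) (f : ℕ → ℕ → ℕ → Bool) : Bool := (List.range n).all fun a => (List.range n).all fun b => (List.range n).all fun c => f a b c
/-- check for real orthogonal similarities -/
def Tb.co (m : ℕ) : Bool := a3 p fun u0 u1 u2 => frc (t.dt u0 u1 u2 u0 u1 u2) fun n => n == 0 || a3 p fun v0 v1 v2 =>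
  !(t.dt u0 u1 u2 v0 v1 v2 == 0 && t.dt v0 v1 v2 v0 v1 v2 == n) || a3 p fun w0 w1 w2 =>
    !(t.dt u0 u1 u2 w0 w1 w2 == 0 && t.dt v0 v1 v2 w0 w1 w2 == 0 && t.dt w0 w1 w2 w0 w1 w2 == n) || t.cm m u0 u1 u2 v0 v1 v2 w0 w1 w2
theorem co3 : t3.co k3 = true := by decide +kernel
theorem co5 : t5.co k7 = true := by decide +kernel

theorem perm7 : ∀ τ : Equiv.Perm (Fin 3), mono τ (1 : Fin 3 → F25) ∈ Pres k7 := fun τ =>
  t5.all (L := [!![1, 0, 0; 0, 1, 0; 0, 0, 1], !![0, 1, 0; 1, 0, 0; 0, 0, 1], !![1, 0, 0; 0, 0, 1; 0, 1, 0], !![0, 0, 1; 0, 1, 0; 1, 0, 0],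
    !![0, 0, 1; 1, 0, 0; 0, 1, 0], !![0, 1, 0; 0, 0, 1; 1, 0, 0]]) (by decide +kernel) _ (by revert τ; decide +kernel)
theorem dg7 : ([1, 4, 12, 13, 17, 18].all fun a => [1, 4, 12, 13, 17, 18].all fun b => [1, 4, 12, 13, 17, 18].all fun c =>
  frc (t5.mu a (t5.mu b c)) fun n => !(t5.mu n n == 1) || t5.cm k7 a 0 0 0 b 0 0 0 c) = true := by decide +kernel
theorem six : ∀ x : F25, x * x * x * (x * x * x) = 1 → cd x ∈ [1, 4, 12, 13, 17, 18] := by decide +kernel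
/-- all normalised triples -/
def CkA (p : ℕ) (Q : ℕ → ℕ → ℕ → Bool) : Bool :=
  ((List.range (p * p)).all fun a => (List.range (p * p)).all fun b => Q 1 a b) && ((List.range (p * p)).all fun b => Q 0 1 b) && Q 0 0 1
theorem ex10 : CkA 5 (fun x y z => (LE.tail.all fun r => !(t5.rw r 0 x y z == x && t5.rw r 1 x y z == y && t5.rw r 2 x y z == z)) ||
    LE.all fun r => frc (t5.rw r 0 x y z) fun x1 => frc (t5.rw r 1 x y z) fun y1 => frc (t5.rw r 2 x y z) fun z1 =>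
      frc (t5.rw r 0 x1 y1 z1) fun x2 => frc (t5.rw r 1 x1 y1 z1) fun y2 => frc (t5.rw r 2 x1 y1 z1) fun z2 =>
        frc (t5.ad (t5.dt x x1 x2 (t5.mu y1 z2) (t5.mu y2 z) (t5.mu y z1)) (t5.mu 4 (t5.dt x x1 x2 (t5.mu y2 z1) (t5.mu y z2) (t5.mu y1 z)))) fun d =>
          frc (t5.mu d d) fun d2 => frc (t5.mu d2 d2) fun d4 => !(t5.mu d4 d4 == 1) || t5.cm k10 x y z x1 y1 z1 x2 y2 z2) = true := by decide +kernel

end H24.U3
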