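import Cfsg.Agent.H24.U3b

/-! Consequences of the kernel checks: monomial, orthogonal and extraspecial-normalising matrices preserve the marked point sets. -/

set_option autoImplicit false
set_option maxRecDepth 100000

namespace H24.U3
open Matrix Cfsg.Geo H29

variable {p : ℕ} [Fact p.Prime] [Fact (∀ r : ZMod p, r ^ 2 ≠ 2 + 0 * r)] (t : Tb p)

theorem frc_eq (n : ℕ) (f : ℕ → Bool) : frc n f = f n := by cases n <;> rfl
theorem Tb.cm_pres {m : ℕ} {A : Matrix (Fin 3) (Fin 3) (QF p)} (h : t.cm m (cd (A 0 0)) (cd (A 1 0)) (cd (A 2 0)) (cd (A 0 1)) (cd (A 1 1)) (cd (A 2 1))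
    (cd (A 0 2)) (cd (A 1 2)) (cd (A 2 2)) = true) : A ∈ Pres m :=
  t.ck h fun v k => by rw [t.pc_iff, t.cd_mv, t.cd_mv, t.cd_mv]; simpa only [frc_eq, Tb.rw] using k
theorem a3_iff {n : ℕ} {f : ℕ → ℕ → ℕ → Bool} : a3 n f = true ↔ ∀ a < n, ∀ b < n, ∀ c < n, f a b c = true := by simp [a3]
theorem Tb.orth {m : ℕ} (k : t.co m = true) {A : Matrix (Fin 3) (Fin 3) (QF p)} (h : ∀ i j, cd (A i j) < p) {c : QF p} (hc : c ≠ 0)
    (e : Aᵀ * A = c • (1 : Matrix _ _ _)) : A ∈ Pres m := by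
  have d : ∀ i j, t.dt (cd (A 0 i)) (cd (A 1 i)) (cd (A 2 i)) (cd (A 0 j)) (cd (A 1 j)) (cd (A 2 j)) = if i = j then cd c else 0 := fun i j => by
    have := congrArg cd (congrFun (congrFun e i) j)
    simp only [mul_apply, Fin.sum_univ_three, transpose_apply, t.cd_add, t.cd_mul, Matrix.smul_apply, one_apply, smul_eq_mul, mul_ite, mul_one, mul_zero,
      apply_ite cd, cd_zero] at this
    exact this
  have c0 : cd c ≠ 0 := fun e => hc (t.cd_inj.1 (e.trans cd_zero.symm))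
  simp only [Tb.co, a3_iff, frc_eq, Bool.or_eq_true, Bool.not_eq_true', ← Bool.not_eq_true, Bool.and_eq_true, beq_iff_eq] at k
  refine t.cm_pres ((((k _ (h 0 0) _ (h 1 0) _ (h 2 0)).resolve_left (by simpa [d] using c0) _ (h 0 1) _ (h 1 1) _ (h 2 1)).resolve_left
    (by simp [d]) _ (h 0 2) _ (h 1 2) _ (h 2 2)).resolve_left (by simp [d]))
theorem mono7 (τ : Equiv.Perm (Fin 3)) {d : Fin 3 → F25} (h : ∀ i, d i ^ 6 = 1) (h' : (∏ i, d i) ^ 2 = 1) : mono τ d ∈ Pres k7 := by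
  have : mono τ d = mono τ 1 * diagonal d := by ext1 i j; simp [mono]
  have k := fun i => six (d i) (by rw [← h i]; ring)
  have e := dg7
  simp only [List.all_eq_true, frc_eq, Bool.or_eq_true, Bool.not_eq_true', ← Bool.not_eq_true, beq_iff_eq] at e
  refine this ▸ mul_mem (perm7 τ) (t5.cm_pres ?_)
  simpa [cd_zero] using (e _ (k 0) _ (k 1) _ (k 2)).resolve_left (by
    rw [← t5.cd_mul, ← t5.cd_mul, ← t5.cd_mul, ← mul_assoc (d 0), ← Fin.prod_univ_three, ← sq, h', cd_one]; simp)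

include t in
theorem Tb.cka {Q : ℕ → ℕ → ℕ → Bool} (k : CkA p Q = true) {v : Fin 3 → QF p} (hv : v ≠ 0) :
    ∃ c : QF p, c ≠ 0 ∧ Q (cd ((c • v) 0)) (cd ((c • v) 1)) (cd ((c • v) 2)) = true := by
  simp only [CkA, Bool.and_eq_true, List.all_eq_true, List.mem_range] at k
  have lt := fun x => (t.hi x x).2.2.1
  by_cases a : v 0 = 0
  · by_cases b : v 1 = 0
    · have e : v 2 ≠ 0 := fun e => hv (funext fun i => by fin_cases i <;> assumption)
      exact ⟨_, inv_ne_zero e, by simpa [a, b, inv_mul_cancel₀ e, cd_one, cd_zero] using k.2⟩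
    · exact ⟨_, inv_ne_zero b, by simpa [a, inv_mul_cancel₀ b, cd_one, cd_zero] using k.1.2 _ (lt _)⟩
  · exact ⟨_, inv_ne_zero a, by simpa [inv_mul_cancel₀ a, cd_one] using k.1.1 _ (lt _) _ (lt _)⟩
theorem Tb.nml {L L' : List (Matrix (Fin 3) (Fin 3) (QF p))} {m n : ℕ} (hn : n = cd (-1 : QF p)) (h8 : ∀ c : QF p, c ≠ 0 → c ^ 24 = 1)
    (ex : CkA p (fun x y z => (L'.all fun r => !(t.rw r 0 x y z == x && t.rw r 1 x y z == y && t.rw r 2 x y z == z)) ||
    L.all fun r => frc (t.rw r 0 x y z) fun x1 => frc (t.rw r 1 x y z) fun y1 => frc (t.rw r 2 x y z) fun z1 =>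
      frc (t.rw r 0 x1 y1 z1) fun x2 => frc (t.rw r 1 x1 y1 z1) fun y2 => frc (t.rw r 2 x1 y1 z1) fun z2 =>
        frc (t.ad (t.dt x x1 x2 (t.mu y1 z2) (t.mu y2 z) (t.mu y z1)) (t.mu n (t.dt x x1 x2 (t.mu y2 z1) (t.mu y z2) (t.mu y1 z)))) fun d =>
          frc (t.mu d d) fun d2 => frc (t.mu d2 d2) fun d4 => !(t.mu d4 d4 == 1) || t.cm m x y z x1 y1 z1 x2 y2 z2) = true)
    {A r s : Matrix (Fin 3) (Fin 3) (QF p)} {a b : QF p} (hr : r ∈ L') (hs : s ∈ L) (e1 : A * diagonal ![1, a, b] = r * A)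
    (e2 : A * !![0, 0, 1; 1, 0, 0; 0, 1, 0] = s * A) (hd : A.det = 1) : A ∈ Pres m := by
  obtain ⟨c, hc, k⟩ := t.cka ex (v := fun i => A i 0) fun e => by
    rw [det_eq_zero_of_column_eq_zero 0 (congrFun e)] at hd; exact zero_ne_one hd
  rw [← Pres_smul hc]
  have e3 : (c • A).det ^ 8 = 1 := by
    rw [det_smul, hd, mul_one, ← pow_mul]; simpa using h8 c hc
  replace e1 : c • A * diagonal ![1, a, b] = r * c • A := by rw [smul_mul_assoc, e1, mul_smul_comm]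
  replace e2 : c • A * !![0, 0, 1; 1, 0, 0; 0, 1, 0] = s * c • A := by rw [smul_mul_assoc, e2, mul_smul_comm]
  simp only [show ∀ j, (c • fun i => A i 0) j = (c • A) j 0 from fun _ => rfl] at k
  generalize c • A = B at *
  have f : ∀ (X : Matrix (Fin 3) (Fin 3) (QF p)) i j, t.rw X i (cd (B 0 j)) (cd (B 1 j)) (cd (B 2 j)) = cd ((X * B) i j) := fun X i j =>
    (t.cd_mv X (fun i => B i j) i).symm
  have f1 : ∀ i, (r * B) i 0 = B i 0 := fun i => by rw [← e1]; simp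
  have f2 : ∀ i, (s * B) i 0 = B i 1 := fun i => by rw [← e2]; simp [mul_apply, Fin.sum_univ_three]
  have f3 : ∀ i, (s * B) i 1 = B i 2 := fun i => by rw [← e2]; simp [mul_apply, Fin.sum_univ_three]
  have f4 : t.ad (t.dt (cd (B 0 0)) (cd (B 0 1)) (cd (B 0 2)) (t.mu (cd (B 1 1)) (cd (B 2 2))) (t.mu (cd (B 1 2)) (cd (B 2 0))) (t.mu (cd (B 1 0)) (cd (B 2 1))))
      (t.mu n (t.dt (cd (B 0 0)) (cd (B 0 1)) (cd (B 0 2)) (t.mu (cd (B 1 2)) (cd (B 2 1))) (t.mu (cd (B 1 0)) (cd (B 2 2)))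
        (t.mu (cd (B 1 1)) (cd (B 2 0))))) = cd B.det := by
    simp only [Tb.dt, hn, ← t.cd_mul, ← t.cd_add]
    exact congrArg cd (by rw [det_fin_three]; ring)
  have f5 : B.det * B.det * (B.det * B.det) * (B.det * B.det * (B.det * B.det)) = 1 := by rw [← e3]; ring
  rcases Bool.or_eq_true _ _ ▸ k with k | k
  · have := List.all_eq_true.1 k r hr
    rw [f, f, f, f1, f1, f1] at this
    simp at this
  · have := List.all_eq_true.1 k s hs
    rw [f, f, f, f2, f2, f2, frc_eq, frc_eq, frc_eq, f, f, f, f3, f3, f3, frc_eq, frc_eq, frc_eq, f4, frc_eq, ← t.cd_mul, frc_eq, ← t.cd_mul, frc_eq,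
      ← t.cd_mul, f5, cd_one] at this
    exact t.cm_pres (by simpa using this)
theorem nml10 {A r s : Matrix (Fin 3) (Fin 3) F25} {a b : F25} (hr : r ∈ LE.tail) (hs : s ∈ LE) (e1 : A * diagonal ![1, a, b] = r * A)
    (e2 : A * !![0, 0, 1; 1, 0, 0; 0, 1, 0] = s * A) (hd : A.det = 1) : A ∈ Pres k10 :=
  t5.nml (by decide +kernel) (fun c hc => by simpa [card_QA] using FiniteField.pow_card_sub_one_eq_one c hc) ex10 hr hs e1 e2 hd

end H24.U3
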