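import Cfsg.Agent.H24.U3c

/-! The non-maximal geometric subgroups of `SU₃(3)` and `SU₃(5)`. -/

set_option autoImplicit false
set_option maxRecDepth 100000

namespace H24.U3
open Matrix Cfsg.Geo H29

variable {F : Type*} [Field F] [Fintype F] {σ : F →+* F} {T : (Fin 3 → F) ≃ₗ[F] (Fin 3 → F)}
section
variable {p : ℕ} [Fact p.Prime] [Fact (∀ r : ZMod p, r ^ 2 ≠ 2 + 0 * r)]

/-- explicit special unitary matrices -/
def SUm (A : Matrix (Fin 3) (Fin 3) (QF p)) : Prop :=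
  A 0 0 * A 1 1 * A 2 2 - A 0 0 * A 1 2 * A 2 1 - A 0 1 * A 1 0 * A 2 2 + A 0 1 * A 1 2 * A 2 0 + A 0 2 * A 1 0 * A 2 1 - A 0 2 * A 1 1 * A 2 0 = 1 ∧
    Aᵀ * A.map star = 1
instance instDecSUm : DecidablePred (SUm (p := p)) := fun A => by unfold SUm; infer_instance
theorem SUm_iff (hs : ∀ x : QF p, x ^ p = star x) {A : Matrix (Fin 3) (Fin 3) (QF p)} : SUm A ↔ A.det = 1 ∧ Aᵀ * 1 * A.map (· ^ p) = 1 := by
  rw [SUm, det_fin_three, Matrix.mul_one, show (fun x : QF p => x ^ p) = star from funext hs]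

theorem btw (hs : ∀ x : QF p, x ^ p = star x) (e : QF p ≃+* F) (hq : ∀ x, σ x = x ^ p) (hG : gT σ 1 T = 1) {N : Subgroup (GL (Fin 3) F)} {m : ℕ}
    (h1 : ∀ g ∈ N, ∀ A : Matrix (Fin 3) (Fin 3) (QF p), g.1 = Φ T (A.map e) → A.det = 1 ∧ Aᵀ * 1 * A.map (· ^ p) = 1 → A ∈ Pres m)
    {B C : Matrix (Fin 3) (Fin 3) (QF p)} (hB : SUm B) (hB' : ∃ v, PM m v ∧ ¬ PM m (B *ᵥ v)) (hC : SUm C) (hC' : C ∈ Pres m)
    (h2 : ∀ g ∈ N, g.1 ≠ Φ T (C.map e)) : ∃ K, N ⊓ (Iso σ 1 ⊓ specialLinear (Fin 3) F) < K ∧ K < Iso σ 1 ⊓ specialLinear (Fin 3) F := by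
  obtain ⟨b, hb, eb⟩ := lift_SU e hq hG ((SUm_iff hs).1 hB)
  obtain ⟨c, hc, ec⟩ := lift_SU e hq hG ((SUm_iff hs).1 hC)
  obtain ⟨v, h5, h6⟩ := hB'
  refine between (X := setStab (PS e T (PM m))) (fun g hg => ?_) (fun h => h6 ((mem_PS eb).1 (h hb) v h5)) fun h => h2 c (h ⟨(mem_PS ec).2 hC', hc⟩) ec
  obtain ⟨A, eA⟩ := exists_unlift e ((Φ T).symm g.1)
  have : g.1 = Φ T (A.map e) := by rw [← eA, AlgEquiv.apply_symm_apply]
  exact (mem_PS this).2 (h1 g hg.1 A this (of_lift_SU hq hG hg.2 this))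

theorem rat_nf (hσ : ∀ a, σ (σ a) = a) (hne : σ ≠ RingHom.id F) {F₀ : Subfield F} (h0 : ∀ x ∈ F₀, σ x = x) (h2 : (2 : F) ≠ 0) {P : GL (Fin 3) F}
    (hP : IsFormRationalStructure (fm σ 1) F₀ 1 P) : ∃ T : (Fin 3 → F) ≃ₗ[F] (Fin 3 → F), gT σ 1 T = 1 ∧
      ∀ g ∈ subfieldSubgroup F₀ P, ∃ c : F, c ≠ 0 ∧ ∃ X, g.1 = Φ T X ∧ RatM F₀ (c • X) := by
  have hG := (hf_one (κ := Fin 3) hσ).gT (H11.glEquiv P)
  have r : ∀ i j, gT σ 1 (H11.glEquiv P) i j ∈ F₀ := fun i j => by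
    rw [← fm_single (σ := σ) (G := gT σ 1 (H11.glEquiv P)), fm_gT, ← one_mul (fm _ _ _ _)]
    exact hP _ _ (fun k => by rw [Pi.single_apply]; split_ifs <;> simp) fun k => by rw [Pi.single_apply]; split_ifs <;> simp
  let G₀ : Matrix (Fin 3) (Fin 3) F₀ := of fun i j => ⟨_, r i j⟩
  have e0 : gT σ 1 (H11.glEquiv P) = F₀.subtype.mapMatrix G₀ := rfl
  have d0 : G₀.det ≠ 0 := fun e => ((isUnit_iff_isUnit_det _).1 hG.unit).ne_zero (by rw [e0, ← RingHom.map_det, e, map_zero])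
  obtain ⟨T₀, hT⟩ := symm_congr (G := G₀) (G' := G₀.det • (1 : Matrix (Fin 3) (Fin 3) F₀)) (fun e => h2 (congrArg Subtype.val e))
    ⟨fun _ => rfl, (isUnit_iff_isUnit_det _).2 d0.isUnit, by
      ext i j; simpa [G₀, h0 _ (r i j)] using congrFun (congrFun hG.herm i) j⟩
    ⟨fun _ => rfl, (isUnit_iff_isUnit_det _).2 (by simp [d0]), by simp⟩ rfl
    (by rw [det_smul, det_one, mul_one, Fintype.card_fin, pow_succ, H11.sqSign_mul (pow_ne_zero _ d0) d0, H11.sqSign_sq, one_mul])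
  obtain ⟨Q, hQ⟩ := exists_gl (σ := RingHom.id F₀) (G := G₀) T₀
  obtain ⟨s, hs⟩ := H11.exists_norm_eq hσ hne (μ := (G₀.det : F)⁻¹) (h0 _ (inv_mem G₀.det.2))
  have d1 : (G₀.det : F) ≠ 0 := fun e => d0 (Subtype.ext e)
  have s0 : s ≠ 0 := fun e => inv_ne_zero d1 (by rw [← hs, e, mul_zero])
  let Q' := GeneralLinearGroup.map F₀.subtype Q
  have e1 : gT σ 1 (mulT (H11.glEquiv P) Q') = (G₀.det : F) • (1 : Matrix (Fin 3) (Fin 3) F) := by
    rw [gT_mulT, e0, show Q'.1.map σ = F₀.subtype.mapMatrix Q.1 from by ext i j; exact h0 _ (Q.1 i j).2,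
      show Q'.1ᵀ = F₀.subtype.mapMatrix Q.1ᵀ from rfl, ← map_mul, ← map_mul]
    rw [hT] at hQ
    rw [show Q.1ᵀ * G₀ * Q.1 = _ from hQ.symm]
    ext i j; simp [one_apply, apply_ite Subtype.val]
  refine ⟨(mulT (H11.glEquiv P) Q').trans (LinearEquiv.smulOfNeZero F _ s s0), congr_of_equiv _ fun x y => ?_, fun g hg => ?_⟩
  · change fm σ 1 (s • mulT (H11.glEquiv P) Q' x) (s • mulT (H11.glEquiv P) Q' y) = _
    rw [fm_smul_left, fm_smul_right, ← fm_gT, e1, fm_smul, ← mul_assoc, ← mul_assoc, mul_comm s, hs, inv_mul_cancel₀ d1, one_mul]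
  · obtain ⟨c, hc, h⟩ := mem_subfieldSubgroup.1 hg
    refine ⟨c, hc, cjA Q'⁻¹ (cjA P⁻¹ g.1), eq_Φ fun x => ?_, fun i j => ?_⟩
    · change g.1 *ᵥ (s • mulT (H11.glEquiv P) Q' x) = s • mulT (H11.glEquiv P) Q' _
      rw [← Φ_mulVec, Φ_mulT, Φ_glEquiv, cjA_cjA_inv, cjA_cjA_inv, mulVec_smul]
    · rw [← map_smul, cjA_apply, inv_inv, mul_apply]
      refine sum_mem fun k _ => mul_mem ?_ (Q.1 k j).2
      rw [mul_apply]
      exact sum_mem fun l _ => mul_mem ((Q⁻¹).1 i l).2 (h l k)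

theorem orth_case (t : Tb p) (hs : ∀ x : QF p, x ^ p = star x) (hr : ∀ x : QF p, star x = x → cd x < p) (h2 : (2 : QF p) ≠ 0) {m : ℕ} (co : t.co m = true)
    {B C : Matrix (Fin 3) (Fin 3) (QF p)} (hB : SUm B) (hB' : ∃ v, PM m v ∧ ¬ PM m (B *ᵥ v)) (hC : SUm C) (hC' : C ∈ Pres m)
    (hC2 : ∀ c : QF p, c ≠ 0 → ¬ ∀ i j, cd (c * C i j) < p) (hF : Fintype.card F = p ^ 2) {F₀ : Subfield F} {P : GL (Fin 3) F}
    (h0 : Fintype.card F = Nat.card F₀ ^ 2) (hP : IsFormRationalStructure (Cfsg.hermForm 3 F p) F₀ 1 P) :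
    ∃ K, subfieldSubgroup F₀ P ⊓ (Cfsg.GU 3 F p ⊓ specialLinear (Fin 3) F) < K ∧ K < Cfsg.GU 3 F p ⊓ specialLinear (Fin 3) F := by
  classical
  obtain ⟨e⟩ := equiv_of_card (M := QF p) hF (by simp [card_QA, sq])
  obtain ⟨σ, hq, hσ, hne⟩ := H11.exists_frob hF
  rw [GU_iso hq]
  rw [herm_eq hq] at hP
  have h3 : ∀ x ∈ F₀, σ x = x := fun x hx => by
    have := congrArg Subtype.val (FiniteField.pow_card (⟨x, hx⟩ : F₀))
    rwa [← Nat.card_eq_fintype_card, Nat.pow_left_injective two_ne_zero (h0.symm.trans hF), SubmonoidClass.coe_pow, ← hq] at this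
  obtain ⟨T, hG, hT⟩ := rat_nf hσ hne h3 (fun e' => h2 (e.injective (by rw [map_ofNat, e', map_zero]))) hP
  have k : ∀ g ∈ subfieldSubgroup F₀ P, ∀ A : Matrix (Fin 3) (Fin 3) (QF p), g.1 = Φ T (A.map e) → ∃ c : QF p, c ≠ 0 ∧ ∀ i j, star (c * A i j) = c * A i j :=
    fun g hg A hA => by
      obtain ⟨c, hc, X, e1, e2⟩ := hT g hg
      obtain rfl := (Φ T).injective (e1.symm.trans hA)
      refine ⟨e.symm c, by simpa, fun i j => e.injective ?_⟩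
      rw [← hs, map_pow, ← hq]
      exact h3 _ (by simpa using e2 i j)
  refine btw hs e hq hG (fun g hg A hA h => ?_) hB hB' hC hC' fun g hg h => let ⟨c, h1, h2⟩ := k g hg C h; hC2 c h1 fun i j => hr _ (h2 i j)
  obtain ⟨c, h4, h5⟩ := k g hg A hA
  refine (Pres_smul h4).1 (t.orth co (fun i j => hr _ (h5 i j)) (c := c * star c) (by simpa) ?_)
  rw [← ((SUm_iff hs).2 h).2]
  conv_lhs => rw [show c • A = c • A from rfl]; enter [2]; rw [show c • A = star c • A.map star from by ext1 i j; simpa using (h5 i j).symm]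
  rw [transpose_smul, smul_mul_smul_comm]
end

theorem pw3 : ∀ x : F9, x ^ 3 = star x := by decide +kernel
theorem pw5 : ∀ x : F25, x ^ 5 = star x := fun x => by rw [show x ^ 5 = x * x * (x * x) * x by ring]; revert x; decide +kernel
theorem n7 : ∃ v, PM k7 v ∧ ¬ PM k7 ((!![4, 0, 0; 0, 2, ⟨0, 2⟩; 0, ⟨0, 3⟩, 3] : Matrix _ _ F25) *ᵥ v) := t5.not ![1, ⟨0, 4⟩, ⟨0, 4⟩] (by decide +kernel)

theorem orth3 (hF : Fintype.card F = 3 ^ 2) {F₀ : Subfield F} {P : GL (Fin 3) F}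
    (h0 : Fintype.card F = Nat.card F₀ ^ 2) (hP : IsFormRationalStructure (Cfsg.hermForm 3 F 3) F₀ 1 P) :
    ∃ K, subfieldSubgroup F₀ P ⊓ (Cfsg.GU 3 F 3 ⊓ specialLinear (Fin 3) F) < K ∧ K < Cfsg.GU 3 F 3 ⊓ specialLinear (Fin 3) F :=
  orth_case t3 pw3 (by decide +kernel) (by decide +kernel) co3 (B := !![1, 1, ⟨1, 2⟩; 1, 1, ⟨2, 1⟩; ⟨1, 1⟩, ⟨2, 2⟩, 0])
    (C := !![⟨0, 1⟩, 0, 0; 0, ⟨0, 2⟩, 0; 0, 0, 1]) (by decide +kernel) (t3.not ![1, 0, 0] (by decide +kernel)) (by decide +kernel)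
    (t3.cm_pres (by decide +kernel)) (by decide +kernel) hF h0 hP
theorem orth5 (hF : Fintype.card F = 5 ^ 2) {F₀ : Subfield F} {P : GL (Fin 3) F}
    (h0 : Fintype.card F = Nat.card F₀ ^ 2) (hP : IsFormRationalStructure (Cfsg.hermForm 3 F 5) F₀ 1 P) :
    ∃ K, subfieldSubgroup F₀ P ⊓ (Cfsg.GU 3 F 5 ⊓ specialLinear (Fin 3) F) < K ∧ K < Cfsg.GU 3 F 5 ⊓ specialLinear (Fin 3) F :=
  orth_case t5 pw5 (by decide +kernel) (by decide +kernel) co5 (C := !![⟨3, 2⟩, 0, 0; 0, ⟨3, 3⟩, 0; 0, 0, 1]) (by decide +kernel) n7 (by decide +kernel)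
    (t5.cm_pres (by decide +kernel)) (by decide +kernel) hF h0 hP

theorem frame5 (hF : Fintype.card F = 5 ^ 2) {D : Fin 3 → Submodule F (Fin 3 → F)} (hD : IsNondegenerateMDecomposition (Cfsg.hermForm 3 F 5) 1 D) :
    ∃ K, decompositionStabilizer D ⊓ (Cfsg.GU 3 F 5 ⊓ specialLinear (Fin 3) F) < K ∧ K < Cfsg.GU 3 F 5 ⊓ specialLinear (Fin 3) F := by
  obtain ⟨e⟩ := equiv_of_card (M := F25) hF (by simp [card_QA])
  obtain ⟨σ, hq, hσ, hne⟩ := H11.exists_frob hF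
  rw [GU_iso hq]
  rw [herm_eq hq] at hD
  obtain ⟨T, hG, hT⟩ := exists_monoU (hf_one hσ) hne hD
  refine mono_between e hT (PM k7) (fun τ d g hg e => ?_) (A := mR) (lift_SU e hq hG ((SUm_iff pw5).1 (by decide +kernel)))
    (lift_SU e hq hG ((SUm_iff pw5).1 (by decide +kernel))) (ck7 _ (by simp [L7])) n7 ⟨0, 1, 0, by decide +kernel⟩
  obtain ⟨h1, h2⟩ := of_lift_SU hq hG hg e
  exact mono7 τ (mono_norm (by norm_num) h2) (mono_sq h1).1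

theorem not_frame {q : ℕ} (hF : Fintype.card F = q ^ 2) (h3 : 3 ≤ q) (hq : ∀ x, σ x = x ^ q) (hσ : ∀ a, σ (σ a) = a) (hne : σ ≠ RingHom.id F)
    (hb : Big (Iso σ 1 ⊓ specialLinear (Fin 3) F) (fun v => fm σ 1 v v = 0) 2) {D : Fin 3 → Submodule F (Fin 3 → F)}
    (hD : IsNondegenerateMDecomposition (fm σ 1) 1 D) : ¬ Iso σ 1 ⊓ specialLinear (Fin 3) F ≤ decompositionStabilizer D := fun hle => by
  obtain ⟨T, hG, hT⟩ := exists_monoU (hf_one hσ) hne hD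
  obtain ⟨b, b0, b1⟩ : ∃ b : F, b ≠ 0 ∧ σ b * b ≠ -1 := by
    by_contra! h
    obtain ⟨g, hg⟩ := IsCyclic.exists_ofOrder_eq_natCard (α := Fˣ)
    have := Nat.le_of_dvd (by omega) (orderOf_dvd_of_pow_eq_one (x := g) (n := q + 1) (Units.ext (by
      rw [Units.val_pow_eq_pow_val, pow_succ, ← hq, h g g.ne_zero, ← h 1 one_ne_zero]; simp)))
    rw [hg, Nat.card_units, Nat.card_eq_fintype_card, hF] at this
    have : q ^ 2 ≤ q + 2 := by omega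
    nlinarith
  obtain ⟨a, ha⟩ := H11.exists_norm_eq hσ hne (μ := -1) (by simp)
  obtain ⟨c, hc⟩ := H11.exists_norm_eq hσ hne (μ := -1 - σ b * b) (by simp [hσ, mul_comm])
  have c0 : c ≠ 0 := fun e => b1 (by rw [e, mul_zero] at hc; linear_combination hc)
  obtain ⟨g, hg, s, s0, e⟩ := hb.trans (T ![1, a, 0]) (T ![1, b, c]) (T.map_ne_zero_iff.2 fun e => one_ne_zero (congrFun e 0))
    (T.map_ne_zero_iff.2 fun e => one_ne_zero (congrFun e 0))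
    (by rw [← fm_gT, hG, fm_eq]; simp [Fin.sum_univ_three, dotProduct]; linear_combination ha)
    (by rw [← fm_gT, hG, fm_eq]; simp [Fin.sum_univ_three, dotProduct]; linear_combination hc)
  obtain ⟨τ, d, ed⟩ := hT g (hle hg)
  rw [ed, Φ_mulVec, ← map_smul, T.injective.eq_iff, mono_mulVec] at e
  have := congrFun e (τ 2)
  rw [Function.comp_apply, τ.symm_apply_apply] at this
  generalize τ 2 = i at this
  fin_cases i <;> simp [s0, s0.symm, b0, c0] at this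

end H24.U3
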