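import Cfsg.Agent.H24.U3d
/-! The cubic field normalisers in `SU₃(3)`, `SU₃(5)` are not maximal. -/

set_option autoImplicit false
set_option maxRecDepth 100000

namespace H24.U3
open Matrix Cfsg.Geo H29

variable {F : Type*} [Field F] [Fintype F]

theorem fld_case {p : ℕ} [Fact p.Prime] [Fact (∀ r : ZMod p, r ^ 2 ≠ 2 + 0 * r)] (hs : ∀ x : QF p, x ^ p = star x) (hF : Fintype.card F = p ^ 2)
    {H : Subgroup (GL (Fin 3) F)} (hH : IsMaximalIn (Cfsg.GU 3 F p ⊓ specialLinear (Fin 3) F) H) {K : Subalgebra F (Matrix (Fin 3) (Fin 3) F)}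
    (hK : IsFieldSubalgebra 3 K) (ha : IsAdjointClosedFor (Cfsg.hermForm 3 F p) K)
    (h : H = subalgebraNormalizer K ⊓ (Cfsg.GU 3 F p ⊓ specialLinear (Fin 3) F)) {s m : ℕ}
    (a1 : ¬ 7 ^ 2 ∣ ∏ i : Fin 3, ((p ^ 2) ^ 3 - (p ^ 2) ^ (i : ℕ))) (a2 : s ∣ p ^ 2 - 1) (a3 : Nat.Coprime 7 s)
    (a4 : Nat.gcd (p ^ 3 + 1) (((p ^ 2) ^ 3 - 1) / (p ^ 2 - 1)) = 7 * s) (a5 : 7 ∣ (p ^ 2) ^ 3 - 1) (a6 : 7 ∣ p ^ 3 + 1) (a7 : Nat.Coprime 7 (p ^ 2 - 1))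
    {A B C D Y A2 A4 : Matrix (Fin 3) (Fin 3) (QF p)} (hl : SUm A ∧ SUm B ∧ SUm C ∧ SUm D) (hP : ∀ X ∈ [A, B, C], X ∈ Pres m)
    (hD : ∃ v, PM m v ∧ ¬ PM m (D *ᵥ v)) (h1 : A * A = A2 ∧ A2 * A2 = A4 ∧ A4 * A2 * A = 1 ∧ A ≠ 1 ∧ B * A = A2 * B ∧ B * A ≠ A * B ∧ C * A = Y * C ∧
      Y * A ≠ A * Y) : False := by
  obtain ⟨e⟩ := equiv_of_card (M := QF p) hF (by simp [card_QA, sq])
  obtain ⟨σ, hq, hσ, hne⟩ := H11.exists_frob hF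
  rw [GU_iso hq] at hH h
  rw [herm_eq hq] at ha
  have h2 := fun k => fld_unit (k := k) (hf_one hσ) hne hF hK ha
  obtain ⟨b1, b2, b3, b4, b5, b6, b7, b8⟩ := h1
  refine fld_model (r := 7) (s := s) (j := 2) e (.refl F _) hH (by simpa) (by simp [Nat.prime_three]) h (by norm_num)
    (by rw [card_GL_field, hF]; exact a1) (hF ▸ a2) a3 (fun k hk hk' => ?_) (by simpa [hF] using a5)
    (fun a h3 h4 => ⟨(h2 a h3).2 (by obtain ⟨c, hc⟩ := a6; rw [hc, pow_mul, h4, one_pow]), mem_SL_of_pow h4 (hF ▸ a7)⟩) (PM m)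
    (A := A) (B := B) (C := C) (D := D) (Y := Y) (fun X hX => lift_SU e hq gT_refl ((SUm_iff hs).1 ((by simpa using hl : ∀ X ∈ [A, B, C, D], SUm X) X hX)))
    (fun v hv => ⟨⟨hP A (by simp) v hv, hP B (by simp) v hv, hP C (by simp) v hv⟩, fun c hc => (PM_smul hc v).2 hv⟩) hD
    (by rw [← b3, ← b2, ← b1]; simp only [pow_succ, pow_zero, one_mul, mul_assoc]) b4 (by rw [sq, b1, b5]) b6 b7 b8
  rw [← a4]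
  refine pow_gcd_eq_one.2 ⟨(h2 k hk').1 hk.1, Units.ext ?_⟩
  simpa [hF] using fld_pow (by simpa) hk' (congrArg Units.val hk.2)

theorem fld3 (hF : Fintype.card F = 3 ^ 2) {H : Subgroup (GL (Fin 3) F)} (hH : IsMaximalIn (Cfsg.GU 3 F 3 ⊓ specialLinear (Fin 3) F) H)
    {K : Subalgebra F (Matrix (Fin 3) (Fin 3) F)} (hK : IsFieldSubalgebra 3 K) (ha : IsAdjointClosedFor (Cfsg.hermForm 3 F 3) K)
    (h : H = subalgebraNormalizer K ⊓ (Cfsg.GU 3 F 3 ⊓ specialLinear (Fin 3) F)) : False :=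
  fld_case pw3 hF hH hK ha h (s := 1) (m := k21) (by decide +kernel) (by decide +kernel) (by decide +kernel) (by decide +kernel) (by decide +kernel) (by decide +kernel) (by decide +kernel)
    (A := !![1, 1, ⟨2, 1⟩; ⟨1, 1⟩, ⟨2, 2⟩, 0; 1, 1, ⟨1, 2⟩]) (B := !![0, 0, 1; 2, 0, 0; 0, 2, 0]) (C := !![2, 0, 0; 0, 2, 0; 0, 0, 1])
    (D := !![2, 0, 0; 0, 0, ⟨0, 2⟩; 0, ⟨0, 1⟩, 0]) (Y := !![1, 1, ⟨1, 2⟩; ⟨1, 1⟩, ⟨2, 2⟩, 0; 2, 2, ⟨1, 2⟩])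
    (A2 := !![⟨1, 2⟩, 2, 2; ⟨1, 2⟩, 1, 1; 0, ⟨1, 1⟩, ⟨2, 2⟩]) (A4 := !![⟨2, 2⟩, 0, ⟨2, 2⟩; 1, ⟨1, 2⟩, 2; 2, ⟨1, 2⟩, 1]) (by decide +kernel)
    (t3.all (by decide +kernel)) (t3.not ![1, ⟨2, 1⟩, ⟨1, 2⟩] (by decide +kernel)) (by decide +kernel)
theorem fld5 (hF : Fintype.card F = 5 ^ 2) {H : Subgroup (GL (Fin 3) F)} (hH : IsMaximalIn (Cfsg.GU 3 F 5 ⊓ specialLinear (Fin 3) F) H)
    {K : Subalgebra F (Matrix (Fin 3) (Fin 3) F)} (hK : IsFieldSubalgebra 3 K) (ha : IsAdjointClosedFor (Cfsg.hermForm 3 F 5) K)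
    (h : H = subalgebraNormalizer K ⊓ (Cfsg.GU 3 F 5 ⊓ specialLinear (Fin 3) F)) : False :=
  fld_case pw5 hF hH hK ha h (s := 3) (m := k7) (by decide +kernel) (by decide +kernel) (by decide +kernel) (by decide +kernel) (by decide +kernel) (by decide +kernel) (by decide +kernel)
    (A := mA) (B := mB) (C := mR) (Y := !![⟨1, 4⟩, ⟨2, 3⟩, ⟨2, 3⟩; 1, 4, 3; ⟨3, 3⟩, ⟨4, 4⟩, ⟨2, 2⟩])
    (A2 := !![⟨3, 1⟩, ⟨2, 1⟩, ⟨0, 2⟩; ⟨2, 1⟩, ⟨2, 1⟩, ⟨3, 4⟩; ⟨0, 3⟩, ⟨2, 1⟩, ⟨2, 4⟩]) (A4 := !![4, ⟨3, 3⟩, ⟨4, 1⟩; ⟨3, 3⟩, ⟨1, 4⟩, 1; ⟨1, 4⟩, 4, ⟨2, 2⟩])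
    (by decide +kernel) (t5.all (by decide +kernel)) n7 (by decide +kernel)

end H24.U3
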