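import Cfsg.Agent.H24.U3a
/-! The extraspecial group `3^(1+2)` in `SU₃(5)` as a list. -/

set_option autoImplicit false
set_option maxRecDepth 100000

namespace H24.U3
open Matrix Cfsg.Geo H29

def ea : Matrix (Fin 3) (Fin 3) F25 := diagonal ![1, ⟨2, 2⟩, ⟨2, 3⟩]
def eb : Matrix (Fin 3) (Fin 3) F25 := !![0, 0, 1; 1, 0, 0; 0, 1, 0]
def ea2 : Matrix (Fin 3) (Fin 3) F25 := diagonal ![1, ⟨2, 3⟩, ⟨2, 2⟩]
def eb2 : Matrix (Fin 3) (Fin 3) F25 := !![0, 1, 0; 0, 0, 1; 1, 0, 0]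
def ez : Matrix (Fin 3) (Fin 3) F25 := diagonal fun _ => ⟨2, 2⟩
def ez2 : Matrix (Fin 3) (Fin 3) F25 := diagonal fun _ => ⟨2, 3⟩
theorem LE_eq : LE = [1, ea, ea2].flatMap fun x => [1, eb, eb2].flatMap fun y => [1, ez, ez2].map fun z => x * y * z := by decide +kernel
theorem LE_rel : ea * ea = ea2 ∧ eb * eb = eb2 ∧ ea * eb * (ea2 * eb2) = ez ∧ ez * ez = ez2 ∧ ea ≠ 1 ∧ LE.Nodup ∧ LE.length = 27 ∧ LE = 1 :: LE.tail := by
  decide +kernel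
theorem LE_le {S : Submonoid (Matrix (Fin 3) (Fin 3) F25)} (ha : ea ∈ S) (hb : eb ∈ S) : ∀ r ∈ LE, r ∈ S := by
  obtain ⟨h1, h2, h3, h4, -⟩ := LE_rel
  have a2 : ea2 ∈ S := h1 ▸ mul_mem ha ha
  have b2 : eb2 ∈ S := h2 ▸ mul_mem hb hb
  have z : ez ∈ S := h3 ▸ mul_mem (mul_mem ha hb) (mul_mem a2 b2)
  have z2 : ez2 ∈ S := h4 ▸ mul_mem z z
  intro r hr
  rw [LE_eq] at hr
  obtain ⟨x, hx, hr⟩ := List.mem_flatMap.1 hr
  obtain ⟨y, hy, hr⟩ := List.mem_flatMap.1 hr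
  obtain ⟨t, ht, rfl⟩ := List.mem_map.1 hr
  simp only [List.mem_cons, List.not_mem_nil, or_false] at hx hy ht
  refine mul_mem (mul_mem ?_ ?_) ?_
  · rcases hx with rfl | rfl | rfl; exacts [one_mem _, ha, a2]
  · rcases hy with rfl | rfl | rfl; exacts [one_mem _, hb, b2]
  · rcases ht with rfl | rfl | rfl; exacts [one_mem _, z, z2]

end H24.U3
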