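import Cfsg.Agent.H24.U3d
import Cfsg.Agent.H24.U3f
import Cfsg.Agent.H23.Heis
/-! The normaliser of `3^(1+2)` in `SU₃(5)` is not maximal. -/

set_option autoImplicit false
set_option maxRecDepth 100000

namespace H24.U3
open Matrix Cfsg.Geo H29

variable {F : Type*} [Field F] [Fintype F]

theorem ext5 (hF : Fintype.card F = 5 ^ 2) {E : Subgroup (GL (Fin 3) F)} (hE : E ≤ Cfsg.GU 3 F 5) (st : IsSymplecticTypeGroup 3 E)
    (ai : ActsAbsolutelyIrreducibly (matrixSet E)) (c27 : Nat.card E = 27) (c3 : Nat.card (Subgroup.center E) = 3) :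
    ∃ K, subgroupNormalizer E ⊓ (Cfsg.GU 3 F 5 ⊓ specialLinear (Fin 3) F) < K ∧ K < Cfsg.GU 3 F 5 ⊓ specialLinear (Fin 3) F := by
  classical
  obtain ⟨e⟩ := equiv_of_card (M := F25) hF (by simp [card_QA])
  obtain ⟨σ, hq, hσ, hne⟩ := H11.exists_frob hF
  rw [GU_iso hq] at hE ⊢
  have w2 : (⟨2, 2⟩ : F25) ^ 2 = ⟨2, 3⟩ := by rw [sq]; decide +kernel
  obtain ⟨T, hG, ⟨x, hx, ex⟩, y, hy, ey⟩ := H23.Heis.heis hσ hne (fun h => absurd (e.injective (by rw [map_ofNat, h, map_zero]) : (3 : F25) = 0)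
    (by decide +kernel)) hE st ai c27 c3 (w := e ⟨2, 2⟩) (by rw [← map_pow, w2, ← map_one e, ← map_add, ← map_add, ← map_zero e]; exact congrArg e (by decide +kernel))
  replace ex : x.1 = Ψ e T ea := by
    rw [ex, ← Ψ_apply, ← map_pow, w2, ea, diagonal_map (map_zero e)]; congr 2; ext1 i; fin_cases i <;> simp
  replace ey : y.1 = Ψ e T eb := by rw [ey, ← Ψ_apply]; congr 1; ext1 i j; fin_cases i <;> fin_cases j <;> simp [eb]
  have sub : Ψ e T '' LE.toFinset ⊆ matrixSet E := by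
    rintro _ ⟨r, hr, rfl⟩
    exact LE_le (S := (E.toSubmonoid.map (Units.coeHom _)).comap (Ψ e T)) ⟨x, hx, ex⟩ ⟨y, hy, ey⟩ r (List.mem_toFinset.1 hr)
  have all : ∀ z ∈ E, ∃ r ∈ LE, Ψ e T r = z.1 := fun z hz => by
    obtain ⟨r, hr, h⟩ := (Set.eq_of_subset_of_ncard_le sub (by
      rw [Set.ncard_image_of_injective _ (Ψ e T).injective, Set.ncard_coe_finset, List.toFinset_card_of_nodup LE_rel.2.2.2.2.2.1, LE_rel.2.2.2.2.2.2.1,
        matrixSet, Set.ncard_image_of_injective _ Units.val_injective]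
      exact c27.le)).ge ⟨z, hz, rfl⟩
    exact ⟨r, List.mem_toFinset.1 hr, h⟩
  have key : ∀ g ∈ subgroupNormalizer E, ∀ A : Matrix (Fin 3) (Fin 3) F25, g.1 = Φ T (A.map e) → ∀ z ∈ E, ∀ Z, z.1 = Ψ e T Z → ∃ r ∈ LE, A * Z = r * A :=
    fun g hg A hA z hz Z hZ => by
      obtain ⟨r, hr, h⟩ := all _ ((hg z).1 hz)
      exact ⟨r, hr, (Ψ e T).injective (by rw [map_mul, map_mul, h, ← Ψ_apply e T A, ← hA, ← hZ, ← Units.val_mul, ← Units.val_mul, inv_mul_cancel_right])⟩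
  refine btw pw5 e hq hG (m := k10) (fun g hg A hA h => ?_) (B := !![4, 0, 0; 0, 4, 0; 0, 0, 1]) (C := !![1, 2, 4; 2, 1, 4; 4, 4, 2]) (by decide +kernel)
    (t5.not ![1, ⟨3, 1⟩, ⟨2, 2⟩] (by decide +kernel)) (by decide +kernel) (t5.cm_pres (by decide +kernel)) fun g hg h => ?_
  · obtain ⟨r, hr, h1⟩ := key g hg A hA x hx _ ex
    obtain ⟨s, hs, h2⟩ := key g hg A hA y hy _ ey
    refine nml10 ((List.mem_cons.1 (LE_rel.2.2.2.2.2.2.2 ▸ hr :)).resolve_left ?_) hs h1 h2 h.1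
    rintro rfl
    exact LE_rel.2.2.2.2.1 (((isUnit_iff_isUnit_det _).2 (h.1 ▸ isUnit_one)).mul_left_cancel (h1.trans (by simp)))
  · exact absurd (key g hg _ h x hx _ ex) (by decide +kernel)

end H24.U3
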